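import Cfsg.Agent.Lib.Helper10.TH0

/-!
The first five q-expansion coefficients of the Eisenstein series `E₄` and `E₆`
(pieces C10 and C11 of S1632).
-/

set_option autoImplicit false

namespace Cfsg.Agent.Lib.Helper38.THC10

open Matrix Complex UpperHalfPlane ModularForm MatrixGroups Cfsg.Agent.Lib.Helper10.TH
open scoped Manifold Real
open EisensteinSeries ArithmeticFunction

theorem sigma3_2 : ArithmeticFunction.sigma 3 2 = 9 := by decide
theorem sigma3_3 : ArithmeticFunction.sigma 3 3 = 28 := by decide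
theorem sigma3_4 : ArithmeticFunction.sigma 3 4 = 73 := by decide
theorem sigma5_2 : ArithmeticFunction.sigma 5 2 = 33 := by decide
theorem sigma5_3 : ArithmeticFunction.sigma 5 3 = 244 := by decide
theorem sigma5_4 : ArithmeticFunction.sigma 5 4 = 1057 := by decide

/-- C10 -/
theorem E4_coeffs : (qExpansion 1 E₄).coeff 0 = 1 ∧ (qExpansion 1 E₄).coeff 1 = 240 ∧
    (qExpansion 1 E₄).coeff 2 = 2160 ∧ (qExpansion 1 E₄).coeff 3 = 6720 ∧
    (qExpansion 1 E₄).coeff 4 = 17520 := by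
  have hb : bernoulli 4 = -1 / 30 := by decide +kernel
  refine ⟨E_qExpansion_coeff_zero _ ⟨2, rfl⟩, E₄_qExpansion_coeff_one, ?_, ?_, ?_⟩
  · rw [E_qExpansion_coeff _ ⟨2, rfl⟩, if_neg (by norm_num), hb]
    have h : ArithmeticFunction.sigma (4 - 1) 2 = 9 := sigma3_2
    rw [h]
    norm_num
  · rw [E_qExpansion_coeff _ ⟨2, rfl⟩, if_neg (by norm_num), hb]
    have h : ArithmeticFunction.sigma (4 - 1) 3 = 28 := sigma3_3
    rw [h]
    norm_num
  · rw [E_qExpansion_coeff _ ⟨2, rfl⟩, if_neg (by norm_num), hb]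
    have h : ArithmeticFunction.sigma (4 - 1) 4 = 73 := sigma3_4
    rw [h]
    norm_num

/-- C11 -/
theorem E6_coeffs : (qExpansion 1 E₆).coeff 0 = 1 ∧ (qExpansion 1 E₆).coeff 1 = -504 ∧
    (qExpansion 1 E₆).coeff 2 = -16632 ∧ (qExpansion 1 E₆).coeff 3 = -122976 ∧
    (qExpansion 1 E₆).coeff 4 = -532728 := by
  have hb : bernoulli 6 = 1 / 42 := by decide +kernel
  refine ⟨E_qExpansion_coeff_zero _ ⟨3, rfl⟩, E₆_qExpansion_coeff_one, ?_, ?_, ?_⟩
  · rw [E_qExpansion_coeff _ ⟨3, rfl⟩, if_neg (by norm_num), hb]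
    have h : ArithmeticFunction.sigma (6 - 1) 2 = 33 := sigma5_2
    rw [h]
    norm_num
  · rw [E_qExpansion_coeff _ ⟨3, rfl⟩, if_neg (by norm_num), hb]
    have h : ArithmeticFunction.sigma (6 - 1) 3 = 244 := sigma5_3
    rw [h]
    norm_num
  · rw [E_qExpansion_coeff _ ⟨3, rfl⟩, if_neg (by norm_num), hb]
    have h : ArithmeticFunction.sigma (6 - 1) 4 = 1057 := sigma5_4
    rw [h]
    norm_num

end Cfsg.Agent.Lib.Helper38.THC10
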