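import Cfsg.Agent.Lib.Helper38.CosetGroup

/-!
Membership of a generator in the subgroup from a partial coset enumeration: the certificate only
has to derive that the generator fixes the coset of the identity, so only the vertex checks are
needed (no final table).
-/

set_option autoImplicit false

namespace Cfsg.Agent.Lib.Helper38

namespace Cert

variable {G : Type*} [Group G] {C : Cert} {γ : ℕ → G} {H : Subgroup G}

/-- if the sound facts of the certificate lead from the vertex `0` by the letter `s` back to the
vertex `0`, then the generator `γ s` lies in the subgroup -/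
theorem mem_of_step (hγ : ∀ s, γ s * γ s = 1)
    (hrel : ∀ wid < C.nrel, ((C.wordL wid).map γ).prod = 1)
    (hsub : ∀ wid, C.nsub ≤ wid → wid < C.nw → ((C.wordL wid).map γ).prod ∈ H)
    (hSq : C.chkSq = true) (hV : ∀ v < C.m, C.chkV v = true)
    (s : ℕ) (hm : 0 < C.m) (h0 : C.step C.R 0 s = 0) : γ s ∈ H := by
  have hA : Valid C (fun s (q : G ⧸ H) => γ s • q) ((1 : G) : G ⧸ H) := by
    apply valid_of
    · intro s P; rw [smul_smul, hγ, one_smul]
    · intro wid hwid P
      rw [specB_smul, ← C.wordL_map γ wid, hrel wid hwid, one_smul]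
    · intro wid h1 h2
      rw [specB_smul, ← C.wordL_map γ wid]
      have hm := hsub wid h1 h2
      rw [MulAction.Quotient.smul_mk, smul_eq_mul, mul_one]
      exact QuotientGroup.eq.mpr (by simpa using hm)
    · exact hSq
  have hI := inv_all hA hV C.R le_rfl
  have h3 := step_sound hI 0 s (C.pt (fun s (q : G ⧸ H) => γ s • q) ((1 : G) : G ⧸ H) 0)
    (fun _ => rfl)
  rw [h0] at h3
  have h4 := h3 hm
  rw [pt_zero] at h4
  -- `1 H = γ s • 1 H`
  have h5 : ((1 : G) : G ⧸ H) = ((γ s : G) : G ⧸ H) := by
    rw [h4, MulAction.Quotient.smul_mk, smul_eq_mul, mul_one]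
  have h6 := QuotientGroup.eq.mp h5
  simpa using h6

end Cert

end Cfsg.Agent.Lib.Helper38
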