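import Cfsg.Agent.Lib.Helper38.F78Data
import Cfsg.Agent.Lib.Helper54.MatChk

/-! Matrix product checks for the 78-dimensional representation of Fi22 over `ZMod 13`, part 0
(generated by `tools/helper38/f78/gen78.py`). -/

set_option maxRecDepth 100000
set_option maxHeartbeats 0

namespace Cfsg.Agent.Lib.Helper38.F78

open Cfsg.Agent.Lib.Helper54.MatChk

theorem c_sq0 : chk 78 13 g0 g0 one = true := by decide +kernel

theorem c_sq1 : chk 78 13 g1 g1 one = true := by decide +kernel

theorem c_sq2 : chk 78 13 g2 g2 one = true := by decide +kernel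

theorem c_sq3 : chk 78 13 g3 g3 one = true := by decide +kernel

theorem c_sq4 : chk 78 13 g4 g4 one = true := by decide +kernel

theorem c_sq5 : chk 78 13 g5 g5 one = true := by decide +kernel

theorem c_sq6 : chk 78 13 g6 g6 one = true := by decide +kernel

theorem c_sq7 : chk 78 13 g7 g7 one = true := by decide +kernel

theorem c_sq8 : chk 78 13 g8 g8 one = true := by decide +kernel

theorem c_p_0_1 : chk 78 13 g0 g1 p_0_1 = true := by decide +kernel

theorem c_q_0_1 : chk 78 13 p_0_1 p_0_1 q_0_1 = true := by decide +kernel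

theorem c_r_0_1 : chk 78 13 q_0_1 p_0_1 one = true := by decide +kernel

theorem c_p_0_2 : chk 78 13 g0 g2 p_0_2 = true := by decide +kernel

theorem c_r_0_2 : chk 78 13 p_0_2 p_0_2 one = true := by decide +kernel

theorem c_p_0_3 : chk 78 13 g0 g3 p_0_3 = true := by decide +kernel

end Cfsg.Agent.Lib.Helper38.F78
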