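import Cfsg.Agent.Lib.Helper38.F78Data
import Cfsg.Agent.Lib.Helper54.MatChk

/-! Matrix product checks for the 78-dimensional representation of Fi22 over `ZMod 13`, part 1
(generated by `tools/helper38/f78/gen78.py`). -/

set_option maxRecDepth 100000
set_option maxHeartbeats 0

namespace Cfsg.Agent.Lib.Helper38.F78

open Cfsg.Agent.Lib.Helper54.MatChk

theorem c_r_0_3 : chk 78 13 p_0_3 p_0_3 one = true := by decide +kernel

theorem c_p_0_4 : chk 78 13 g0 g4 p_0_4 = true := by decide +kernel

theorem c_r_0_4 : chk 78 13 p_0_4 p_0_4 one = true := by decide +kernel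

theorem c_p_0_5 : chk 78 13 g0 g5 p_0_5 = true := by decide +kernel

theorem c_r_0_5 : chk 78 13 p_0_5 p_0_5 one = true := by decide +kernel

theorem c_p_0_6 : chk 78 13 g0 g6 p_0_6 = true := by decide +kernel

theorem c_r_0_6 : chk 78 13 p_0_6 p_0_6 one = true := by decide +kernel

theorem c_p_0_7 : chk 78 13 g0 g7 p_0_7 = true := by decide +kernel

theorem c_r_0_7 : chk 78 13 p_0_7 p_0_7 one = true := by decide +kernel

theorem c_p_0_8 : chk 78 13 g0 g8 p_0_8 = true := by decide +kernel

theorem c_r_0_8 : chk 78 13 p_0_8 p_0_8 one = true := by decide +kernel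

theorem c_p_1_2 : chk 78 13 g1 g2 p_1_2 = true := by decide +kernel

theorem c_q_1_2 : chk 78 13 p_1_2 p_1_2 q_1_2 = true := by decide +kernel

theorem c_r_1_2 : chk 78 13 q_1_2 p_1_2 one = true := by decide +kernel

theorem c_p_1_3 : chk 78 13 g1 g3 p_1_3 = true := by decide +kernel

end Cfsg.Agent.Lib.Helper38.F78
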