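import Cfsg.Agent.Lib.Helper38.F78Data
import Cfsg.Agent.Lib.Helper54.MatChk

/-! Matrix product checks for the 78-dimensional representation of Fi22 over `ZMod 13`, part 4
(generated by `tools/helper38/f78/gen78.py`). -/

set_option maxRecDepth 100000
set_option maxHeartbeats 0

namespace Cfsg.Agent.Lib.Helper38.F78

open Cfsg.Agent.Lib.Helper54.MatChk

theorem c_r_3_6 : chk 78 13 p_3_6 p_3_6 one = true := by decide +kernel

theorem c_p_3_7 : chk 78 13 g3 g7 p_3_7 = true := by decide +kernel

theorem c_q_3_7 : chk 78 13 p_3_7 p_3_7 q_3_7 = true := by decide +kernel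

theorem c_r_3_7 : chk 78 13 q_3_7 p_3_7 one = true := by decide +kernel

theorem c_p_3_8 : chk 78 13 g3 g8 p_3_8 = true := by decide +kernel

theorem c_r_3_8 : chk 78 13 p_3_8 p_3_8 one = true := by decide +kernel

theorem c_p_4_5 : chk 78 13 g4 g5 p_4_5 = true := by decide +kernel

theorem c_q_4_5 : chk 78 13 p_4_5 p_4_5 q_4_5 = true := by decide +kernel

theorem c_r_4_5 : chk 78 13 q_4_5 p_4_5 one = true := by decide +kernel

theorem c_p_4_6 : chk 78 13 g4 g6 p_4_6 = true := by decide +kernel

theorem c_r_4_6 : chk 78 13 p_4_6 p_4_6 one = true := by decide +kernel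

theorem c_p_4_7 : chk 78 13 g4 g7 p_4_7 = true := by decide +kernel

theorem c_r_4_7 : chk 78 13 p_4_7 p_4_7 one = true := by decide +kernel

theorem c_p_4_8 : chk 78 13 g4 g8 p_4_8 = true := by decide +kernel

theorem c_r_4_8 : chk 78 13 p_4_8 p_4_8 one = true := by decide +kernel

end Cfsg.Agent.Lib.Helper38.F78
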