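import Cfsg.Agent.Lib.Helper38.F78Data
import Cfsg.Agent.Lib.Helper54.MatChk

/-! Matrix product checks for the 78-dimensional representation of Fi22 over `ZMod 13`, part 5
(generated by `tools/helper38/f78/gen78.py`). -/

set_option maxRecDepth 100000
set_option maxHeartbeats 0

namespace Cfsg.Agent.Lib.Helper38.F78

open Cfsg.Agent.Lib.Helper54.MatChk

theorem c_p_5_6 : chk 78 13 g5 g6 p_5_6 = true := by decide +kernel

theorem c_q_5_6 : chk 78 13 p_5_6 p_5_6 q_5_6 = true := by decide +kernel

theorem c_r_5_6 : chk 78 13 q_5_6 p_5_6 one = true := by decide +kernel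

theorem c_p_5_7 : chk 78 13 g5 g7 p_5_7 = true := by decide +kernel

theorem c_r_5_7 : chk 78 13 p_5_7 p_5_7 one = true := by decide +kernel

theorem c_p_5_8 : chk 78 13 g5 g8 p_5_8 = true := by decide +kernel

theorem c_r_5_8 : chk 78 13 p_5_8 p_5_8 one = true := by decide +kernel

theorem c_p_6_7 : chk 78 13 g6 g7 p_6_7 = true := by decide +kernel

theorem c_r_6_7 : chk 78 13 p_6_7 p_6_7 one = true := by decide +kernel

theorem c_p_6_8 : chk 78 13 g6 g8 p_6_8 = true := by decide +kernel

theorem c_r_6_8 : chk 78 13 p_6_8 p_6_8 one = true := by decide +kernel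

theorem c_p_7_8 : chk 78 13 g7 g8 p_7_8 = true := by decide +kernel

theorem c_q_7_8 : chk 78 13 p_7_8 p_7_8 q_7_8 = true := by decide +kernel

theorem c_r_7_8 : chk 78 13 q_7_8 p_7_8 one = true := by decide +kernel

theorem c_sp_y2 : chk 78 13 g3 p_7_8 sp_y2 = true := by decide +kernel

end Cfsg.Agent.Lib.Helper38.F78
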