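import Cfsg.Agent.Lib.Helper38.F78Data
import Cfsg.Agent.Lib.Helper54.MatChk

/-! Matrix product checks for the 78-dimensional representation of Fi22 over `ZMod 13`, part 6
(generated by `tools/helper38/f78/gen78.py`). -/

set_option maxRecDepth 100000
set_option maxHeartbeats 0

namespace Cfsg.Agent.Lib.Helper38.F78

open Cfsg.Agent.Lib.Helper54.MatChk

theorem c_sp_y3 : chk 78 13 g5 sp_y2 sp_y3 = true := by decide +kernel

theorem c_sp_y4 : chk 78 13 g4 sp_y3 sp_y4 = true := by decide +kernel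

theorem c_sp_y5 : chk 78 13 g3 sp_y4 sp_y5 = true := by decide +kernel

theorem c_sp_y6 : chk 78 13 g1 sp_y5 sp_y6 = true := by decide +kernel

theorem c_sp_y7 : chk 78 13 g2 sp_y6 sp_y7 = true := by decide +kernel

theorem c_sp_y8 : chk 78 13 g3 sp_y7 sp_y8 = true := by decide +kernel

theorem c_sp_x2 : chk 78 13 sp_y8 sp_y8 sp_x2 = true := by decide +kernel

theorem c_sp_x4 : chk 78 13 sp_x2 sp_x2 sp_x4 = true := by decide +kernel

theorem c_sp_x5 : chk 78 13 sp_x4 sp_y8 sp_x5 = true := by decide +kernel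

theorem c_sp_r : chk 78 13 sp_x5 sp_x5 one = true := by decide +kernel

theorem c_ra_y2 : chk 78 13 g4 p_5_7 ra_y2 = true := by decide +kernel

theorem c_ra_y3 : chk 78 13 g3 ra_y2 ra_y3 = true := by decide +kernel

theorem c_ra_y4 : chk 78 13 g2 ra_y3 ra_y4 = true := by decide +kernel

theorem c_ra_y5 : chk 78 13 g1 ra_y4 ra_y5 = true := by decide +kernel

theorem c_ra_y6 : chk 78 13 g0 ra_y5 ra_y6 = true := by decide +kernel

end Cfsg.Agent.Lib.Helper38.F78
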