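import Cfsg.Agent.Lib.Helper38.F78Data
import Cfsg.Agent.Lib.Helper54.MatChk

/-! Matrix product checks for the 78-dimensional representation of Fi22 over `ZMod 13`, part 7
(generated by `tools/helper38/f78/gen78.py`). -/

set_option maxRecDepth 100000
set_option maxHeartbeats 0

namespace Cfsg.Agent.Lib.Helper38.F78

open Cfsg.Agent.Lib.Helper54.MatChk

theorem c_ra_x2 : chk 78 13 ra_y6 ra_y6 ra_x2 = true := by decide +kernel

theorem c_ra_x4 : chk 78 13 ra_x2 ra_x2 ra_x4 = true := by decide +kernel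

theorem c_ra_x8 : chk 78 13 ra_x4 ra_x4 ra_x8 = true := by decide +kernel

theorem c_ra_r : chk 78 13 ra_x8 ra_y6 one = true := by decide +kernel

theorem c_rb_y2 : chk 78 13 g5 p_6_7 rb_y2 = true := by decide +kernel

theorem c_rb_y3 : chk 78 13 g4 rb_y2 rb_y3 = true := by decide +kernel

theorem c_rb_y4 : chk 78 13 g3 rb_y3 rb_y4 = true := by decide +kernel

theorem c_rb_y5 : chk 78 13 g2 rb_y4 rb_y5 = true := by decide +kernel

theorem c_rb_y6 : chk 78 13 g1 rb_y5 rb_y6 = true := by decide +kernel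

theorem c_rb_x2 : chk 78 13 rb_y6 rb_y6 rb_x2 = true := by decide +kernel

theorem c_rb_x4 : chk 78 13 rb_x2 rb_x2 rb_x4 = true := by decide +kernel

theorem c_rb_x8 : chk 78 13 rb_x4 rb_x4 rb_x8 = true := by decide +kernel

theorem c_rb_r : chk 78 13 rb_x8 rb_y6 one = true := by decide +kernel

end Cfsg.Agent.Lib.Helper38.F78
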