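import Cfsg.Agent.Lib.Helper38.U6AN0

set_option maxRecDepth 100000
set_option maxHeartbeats 0

namespace Cfsg.Agent.Lib.Helper38.U6A

theorem chkN_all : ∀ v < 1408, cert.chkN v = true := by
  intro v hv
  by_cases h0 : v < 250
  · exact allFrom_iff.mp chkN_0 v (by omega) (by omega)
  by_cases h1 : v < 500
  · exact allFrom_iff.mp chkN_1 v (by omega) (by omega)
  by_cases h2 : v < 750
  · exact allFrom_iff.mp chkN_2 v (by omega) (by omega)
  by_cases h3 : v < 1000
  · exact allFrom_iff.mp chkN_3 v (by omega) (by omega)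
  by_cases h4 : v < 1250
  · exact allFrom_iff.mp chkN_4 v (by omega) (by omega)
  exact allFrom_iff.mp chkN_5 v (by omega) (by omega)

end Cfsg.Agent.Lib.Helper38.U6A
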