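import Cfsg.Agent.Lib.Helper38.U6BN0

set_option maxRecDepth 100000
set_option maxHeartbeats 0

namespace Cfsg.Agent.Lib.Helper38.U6B

theorem chkN_all : ∀ v < 693, cert.chkN v = true := by
  intro v hv
  by_cases h0 : v < 250
  · exact allFrom_iff.mp chkN_0 v (by omega) (by omega)
  by_cases h1 : v < 500
  · exact allFrom_iff.mp chkN_1 v (by omega) (by omega)
  exact allFrom_iff.mp chkN_2 v (by omega) (by omega)

end Cfsg.Agent.Lib.Helper38.U6B
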