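import Cfsg.Agent.Lib.Helper38.CosetIso
import Cfsg.Agent.Lib.Helper38.U6Pres
import Cfsg.Agent.Lib.Helper38.U6AV
import Cfsg.Agent.Lib.Helper38.U6AN
import Cfsg.Agent.Lib.Helper38.U6CV
import Cfsg.Agent.Lib.Helper38.U6CN
import Cfsg.Agent.Lib.Helper38.U6DV
import Cfsg.Agent.Lib.Helper38.U6DN
import Cfsg.Agent.Lib.Helper38.U6EV
import Cfsg.Agent.Lib.Helper38.U6EN
import Cfsg.Agent.Lib.Helper38.U6BV
import Cfsg.Agent.Lib.Helper38.U6BN
import Cfsg.Agent.Lib.Helper38.U6BO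
import Cfsg.Agent.Lib.Helper38.U6BT

/-!
The group `WP 8 U6.W0`: its order `9196830720`, a base of its action on the 693 cosets of the
centraliser of the generator `c`, and its simplicity.
-/

set_option autoImplicit false

namespace Cfsg.Agent.Lib.Helper38.U6

open Cfsg.Agent.Lib.Helper38

set_option maxRecDepth 100000
set_option maxHeartbeats 0

/-- the generators -/
noncomputable abbrev δ : ℕ → WP 8 W0 := WP.gen 8 W0

theorem C0_chkG : U6A.cert.chkG = true := by decide +kernel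

theorem C0_words : (List.range U6A.cert.nrel).map U6A.cert.wordL = W0 := by decide +kernel

theorem C0_hP : Cert.Pres U6A.cert (WP.gen 8 W0) (U6A.cert.subgp (WP.gen 8 W0)) :=
  WP.pres U6A.cert W0 C0_words U6A.chkN_all

theorem C0_hC : Cert.Checks U6A.cert := ⟨U6A.chkV_all, U6A.chkN_all, C0_chkG⟩

theorem C1_chkG : U6C.cert.chkG = true := by decide +kernel

theorem C1_words : (List.range U6C.cert.nrel).map U6C.cert.wordL = W1 := by decide +kernel

theorem C1_hP : Cert.Pres U6C.cert (WP.gen 8 W1) (U6C.cert.subgp (WP.gen 8 W1)) :=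
  WP.pres U6C.cert W1 C1_words U6C.chkN_all

theorem C1_hC : Cert.Checks U6C.cert := ⟨U6C.chkV_all, U6C.chkN_all, C1_chkG⟩

theorem C2_chkG : U6D.cert.chkG = true := by decide +kernel

theorem C2_words : (List.range U6D.cert.nrel).map U6D.cert.wordL = W2 := by decide +kernel

theorem C2_hP : Cert.Pres U6D.cert (WP.gen 8 W2) (U6D.cert.subgp (WP.gen 8 W2)) :=
  WP.pres U6D.cert W2 C2_words U6D.chkN_all

theorem C2_hC : Cert.Checks U6D.cert := ⟨U6D.chkV_all, U6D.chkN_all, C2_chkG⟩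

theorem C3_chkG : U6E.cert.chkG = true := by decide +kernel

theorem C3_words : (List.range U6E.cert.nrel).map U6E.cert.wordL = W3 := by decide +kernel

theorem C3_hP : Cert.Pres U6E.cert (WP.gen 8 W3) (U6E.cert.subgp (WP.gen 8 W3)) :=
  WP.pres U6E.cert W3 C3_words U6E.chkN_all

theorem C3_hC : Cert.Checks U6E.cert := ⟨U6E.chkV_all, U6E.chkN_all, C3_chkG⟩

theorem fin3 : Finite (WP 8 W3) ∧ Nat.card (WP 8 W3) = 720 :=
  ub_bot C3_hP C3_hC (by decide)

theorem fin2 : Finite (WP 8 W2) ∧ Nat.card (WP 8 W2) ≤ 81 * (720) := by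
  have := fin3.1
  have h := ub_step C2_hP C2_hC W2 (fun w hw => WP.gen_word 8 W2 hw) 8 W3 (actL [1, 2, 3, 5, 6])
    (actL_ge _ 8 (by decide)) (by decide +kernel) (Cert.hsub_of (by decide +kernel))
  exact ⟨h.1, h.2.trans (Nat.mul_le_mul_left _ fin3.2.le)⟩

theorem fin1 : Finite (WP 8 W1) ∧ Nat.card (WP 8 W1) ≤ 112 * (81 * (720)) := by
  have := fin2.1
  have h := ub_step C1_hP C1_hC W1 (fun w hw => WP.gen_word 8 W1 hw) 8 W2 (actL [1, 2, 3, 5, 6, 7])
    (actL_ge _ 8 (by decide)) (by decide +kernel) (Cert.hsub_of (by decide +kernel))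
  exact ⟨h.1, h.2.trans (Nat.mul_le_mul_left _ fin2.2)⟩

theorem fin0 : Finite (WP 8 W0) ∧ Nat.card (WP 8 W0) ≤ 1408 * (112 * (81 * (720))) := by
  have := fin1.1
  have h := ub_step C0_hP C0_hC W0 (fun w hw => WP.gen_word 8 W0 hw) 8 W1 (actL [0, 1, 2, 3, 5, 6, 7])
    (actL_ge _ 8 (by decide)) (by decide +kernel) (Cert.hsub_of (by decide +kernel))
  exact ⟨h.1, h.2.trans (Nat.mul_le_mul_left _ fin1.2)⟩

theorem B_chkG : U6B.cert.chkG = true := by decide +kernel

theorem B_words : (List.range U6B.cert.nrel).map U6B.cert.wordL = W0 := by decide +kernel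

theorem B_hP : Cert.Pres U6B.cert δ (U6B.cert.subgp δ) :=
  WP.pres U6B.cert W0 B_words U6B.chkN_all

theorem B_hC : Cert.Checks U6B.cert := ⟨U6B.chkV_all, U6B.chkN_all, B_chkG⟩

theorem order_and_base : ∃ φ : WP 8 W0 →* Equiv.Perm ℕ, (∀ s < 8, φ (δ s) = U6B.cert.σ s) ∧
    Nat.card (WP 8 W0) = 9196830720 ∧
    ∀ x : WP 8 W0, (∀ p ∈ [0, 1, 3, 7, 57], φ x p = p) → x = 1 := by
  obtain ⟨φ, hφ⟩ := B_hP.hφ
  have := fin0.1
  have r0 : Reach φ [] 0 693 := reach_top B_hP B_hC φ hφ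
  have r1 : Reach φ [0] 1 512 := by
    have h := U6B.T1.reach B_hC φ hφ [0] U6B.T1_fix U6B.T1_pc0 U6B.chkT1_all
    rw [U6B.T1_tot] at h
    exact h
  have r2 : Reach φ [1, 0] 3 135 := by
    have h := U6B.T2.reach B_hC φ hφ [1, 0] U6B.T2_fix U6B.T2_pc0 U6B.chkT2_all
    rw [U6B.T2_tot] at h
    exact h
  have r3 : Reach φ [3, 1, 0] 7 32 := by
    have h := U6B.T3.reach B_hC φ hφ [3, 1, 0] U6B.T3_fix U6B.T3_pc0 U6B.chkT3_all
    rw [U6B.T3_tot] at h
    exact h
  have r4 : Reach φ [7, 3, 1, 0] 57 6 := by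
    have h := U6B.T4.reach B_hC φ hφ [7, 3, 1, 0] U6B.T4_fix U6B.T4_pc0 U6B.chkT4_all
    rw [U6B.T4_tot] at h
    exact h
  have hch : Chain φ [] [(0, 693), (1, 512), (3, 135), (7, 32), (57, 6)] :=
    ⟨r0, r1, r2, r3, r4, trivial⟩
  have hub : Nat.card (WP 8 W0) ≤ ([(0, 693), (1, 512), (3, 135), (7, 32), (57, 6)].map Prod.snd).prod :=
    fin0.2.trans (by decide)
  have h := order_base φ _ hch hub
  exact ⟨φ, hφ, h.1.trans (by decide), h.2⟩

theorem card_eq : Nat.card (WP 8 W0) = 9196830720 := by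
  obtain ⟨φ, hφ, hcard, hbase⟩ := order_and_base
  exact hcard

theorem hδ : ∀ s, δ s * δ s = 1 := B_hP.hγ

/-- the word of the involution `z` -/
def zw : List ℕ := [0]

/-- the identity words of the base certificate are trivial -/
theorem ids : ∀ wid, 63 ≤ wid → wid < 63 + 13 →
    ((U6B.cert.wordL wid).map δ).prod = 1 := by
  obtain ⟨φ, hφ, hcard, hbase⟩ := order_and_base
  exact words_one_of_base B_hC φ hφ [0, 1, 3, 7, 57] hbase 63 13 (by decide +kernel)

theorem cw_1 : U6B.cert.wordL 63 = [0, 1] ++ 0 :: (([0, 1] : List ℕ).reverse ++ [1]) := by decide +kernel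

theorem cw_2 : U6B.cert.wordL 64 = [1, 2, 0, 1] ++ 0 :: (([1, 2, 0, 1] : List ℕ).reverse ++ [2]) := by decide +kernel

theorem cw_3 : U6B.cert.wordL 65 = [2, 3, 1, 2, 0, 1] ++ 0 :: (([2, 3, 1, 2, 0, 1] : List ℕ).reverse ++ [3]) := by decide +kernel

theorem cw_4 : U6B.cert.wordL 66 = [3, 4, 2, 3, 1, 2, 0, 1] ++ 0 :: (([3, 4, 2, 3, 1, 2, 0, 1] : List ℕ).reverse ++ [4]) := by decide +kernel

theorem cw_5 : U6B.cert.wordL 67 = [1, 5, 0, 1] ++ 0 :: (([1, 5, 0, 1] : List ℕ).reverse ++ [5]) := by decide +kernel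

theorem cw_6 : U6B.cert.wordL 68 = [5, 6, 1, 5, 0, 1] ++ 0 :: (([5, 6, 1, 5, 0, 1] : List ℕ).reverse ++ [6]) := by decide +kernel

theorem cw_7 : U6B.cert.wordL 69 = [3, 7, 2, 3, 1, 2, 0, 1] ++ 0 :: (([3, 7, 2, 3, 1, 2, 0, 1] : List ℕ).reverse ++ [7]) := by decide +kernel

theorem zc_40 : U6B.cert.wordL 70 = U6B.cert.wordL 40 ++ (zw ++ ((U6B.cert.wordL 40).reverse ++ zw)) := by decide +kernel

theorem zc_41 : U6B.cert.wordL 71 = U6B.cert.wordL 41 ++ (zw ++ ((U6B.cert.wordL 41).reverse ++ zw)) := by decide +kernel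

theorem zc_42 : U6B.cert.wordL 72 = U6B.cert.wordL 42 ++ (zw ++ ((U6B.cert.wordL 42).reverse ++ zw)) := by decide +kernel

theorem zc_43 : U6B.cert.wordL 73 = U6B.cert.wordL 43 ++ (zw ++ ((U6B.cert.wordL 43).reverse ++ zw)) := by decide +kernel

theorem zc_44 : U6B.cert.wordL 74 = U6B.cert.wordL 44 ++ (zw ++ ((U6B.cert.wordL 44).reverse ++ zw)) := by decide +kernel

theorem zc_45 : U6B.cert.wordL 75 = U6B.cert.wordL 45 ++ (zw ++ ((U6B.cert.wordL 45).reverse ++ zw)) := by decide +kernel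

theorem zc_all : ∀ wid, U6B.cert.nsub ≤ wid → wid < U6B.cert.nw →
    U6B.cert.wordL (30 + wid) = U6B.cert.wordL wid ++ (zw ++ ((U6B.cert.wordL wid).reverse ++ zw)) := by
  intro wid h1 h2
  have h1' : 40 ≤ wid := h1
  have h2' : wid < 46 := h2
  interval_cases wid
  · exact zc_40
  · exact zc_41
  · exact zc_42
  · exact zc_43
  · exact zc_44
  · exact zc_45

/-- the generators are conjugate -/
theorem conj_all : ∀ s, s < 8 → ∃ x : WP 8 W0, δ s = x * δ 0 * x⁻¹ := by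
  intro s hs
  interval_cases s
  · exact ⟨1, by rw [one_mul, inv_one, mul_one]⟩
  · exact ⟨_, conj_of_word hδ [0, 1] 0 1 (by
      have h := ids 63 (by decide) (by decide)
      rw [cw_1] at h
      exact h)⟩
  · exact ⟨_, conj_of_word hδ [1, 2, 0, 1] 0 2 (by
      have h := ids 64 (by decide) (by decide)
      rw [cw_2] at h
      exact h)⟩
  · exact ⟨_, conj_of_word hδ [2, 3, 1, 2, 0, 1] 0 3 (by
      have h := ids 65 (by decide) (by decide)
      rw [cw_3] at h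
      exact h)⟩
  · exact ⟨_, conj_of_word hδ [3, 4, 2, 3, 1, 2, 0, 1] 0 4 (by
      have h := ids 66 (by decide) (by decide)
      rw [cw_4] at h
      exact h)⟩
  · exact ⟨_, conj_of_word hδ [1, 5, 0, 1] 0 5 (by
      have h := ids 67 (by decide) (by decide)
      rw [cw_5] at h
      exact h)⟩
  · exact ⟨_, conj_of_word hδ [5, 6, 1, 5, 0, 1] 0 6 (by
      have h := ids 68 (by decide) (by decide)
      rw [cw_6] at h
      exact h)⟩
  · exact ⟨_, conj_of_word hδ [3, 7, 2, 3, 1, 2, 0, 1] 0 7 (by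
      have h := ids 69 (by decide) (by decide)
      rw [cw_7] at h
      exact h)⟩

/-- the centre is trivial -/
theorem cen_one : ∀ c : WP 8 W0, (∀ x, c * x = x * c) → c = 1 := by
  obtain ⟨φ, hφ, hcard, hbase⟩ := order_and_base
  exact fun c hc => central_eq_one B_hP B_hC φ hφ [0, 2, 3, 4, 5, 6, 7] (by decide +kernel) (allB_iff.mpr U6B.cenF_all)
    [0, 1, 3, 7, 57] hbase (by decide) c hc

/-- the subgroup centralises `z` -/
theorem z_comm : ∀ h ∈ U6B.cert.subgp δ, h * (zw.map δ).prod = (zw.map δ).prod * h :=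
  centralizes hδ U6B.cert zw (by decide) 30 zc_all (fun wid h1 h2 => by
    have h1' : 40 ≤ wid := h1
    have h2' : wid < 46 := h2
    exact ids (30 + wid) (by omega) (by omega))

/-- a relator of odd length -/
def oddw : List ℕ := [0, 1, 2, 3, 4, 5, 6, 0, 1, 2, 3, 4, 5, 6, 0, 1, 2, 3, 4, 5, 6, 0, 1, 2, 3, 4, 5, 6, 0, 1, 2, 3, 4, 5, 6, 0, 1, 2, 3, 4, 5, 6, 0, 1, 2, 3, 4, 5, 6, 0, 1, 2, 3, 4, 5, 6, 0, 1, 2, 3, 4, 5, 6]

theorem B_chkRoots : U6B.cert.chkRoots = true := by decide +kernel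

theorem B_hO : Cert.OChecks U6B.cert := ⟨U6B.chkO_all, B_chkRoots⟩

theorem M_cnt0 : U6B.cert.cnt 0 = 1 := by decide +kernel

theorem M_cnt1 : U6B.cert.cnt 1 = 180 := by decide +kernel

theorem M_cnt2 : U6B.cert.cnt 2 = 512 := by
  have hs := Cert.cnt_sum3 B_hO (by decide)
  rw [M_cnt0, M_cnt1] at hs
  have hn : U6B.cert.n = 693 := by decide
  omega

theorem M_comp0 : U6B.cert.comp 0 = 0 := by decide +kernel

theorem M_max : ∀ M : Subgroup (WP 8 W0), (U6B.cert.subgp δ) ≤ M → M = (U6B.cert.subgp δ) ∨ M = ⊤ :=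
  Cert.maximal_of_rank3 B_hP B_hC B_hO (by decide) M_comp0 M_cnt0 (Cert.cnt_sum3 B_hO (by decide))
    (by rw [M_cnt1]; decide) (by rw [M_cnt2]; decide)

theorem fin : Finite (WP 8 W0) := fin0.1

theorem nontriv : Nontrivial (WP 8 W0) := by
  have := fin
  exact Finite.one_lt_card_iff_nontrivial.mp (by rw [card_eq]; norm_num)

/-- the presented group is simple -/
theorem simple : IsSimpleGroup (WP 8 W0) := by
  have := fin
  have := nontriv
  have hz : (zw.map δ).prod = δ 0 := by simp [zw]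
  have hHz : ∀ h ∈ (U6B.cert.subgp δ), h * δ 0 = δ 0 * h := by
    intro h hh
    have e := z_comm h hh
    rwa [hz] at e
  refine simple_of_transp1 δ 8 B_hP.hgen (δ 0) (hδ 0) ?_ (U6B.cert.subgp δ) hHz M_max cen_one oddw ?_ (by decide)
    (WP.gen_word 8 W0 (by decide))
  · intro s hs
    right; exact conj_all s hs
  · intro s hs
    have h1 : s < 8 := by
      revert s
      decide
    exact conj_all s h1

end Cfsg.Agent.Lib.Helper38.U6
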