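import Cfsg.Agent.S0280
import Cfsg.Agent.Lib.Helper38.F4
import Cfsg.Agent.Lib.Helper38.U6Simple

/-!
The eight generators of the presentation `U6.W0` as unitary transvections over the field with four
elements; the relators are scalar matrices, so that the presented group maps to `PSU₆(2)`; the
homomorphism is an isomorphism since the presented group is simple of the same order.
-/

set_option autoImplicit false
set_option maxRecDepth 100000
set_option maxHeartbeats 0

namespace Cfsg.Agent.Lib.Helper38.U6

open Cfsg.Agent.Lib.Helper38

/-- the field element with the number `d` -/
def ofN : ℕ → F4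
  | 0 => F4.z
  | 1 => F4.o
  | 2 => F4.w
  | _ => F4.v

/-- the entry of the matrix with the code `c` at the place `(m, n)` -/
def en (c m n : ℕ) : F4 := ofN (c / 4 ^ (6 * m + n) % 4)

/-- the matrix with the code `c` -/
def mk (c : ℕ) : Matrix (Fin 6) (Fin 6) F4 := Matrix.of fun i j => en c i.val j.val

/-- the code of the identity matrix -/
def idc : ℕ := 1180663682709764194305

theorem mk_idc : mk idc = 1 := by decide +kernel

theorem mk_apply (c : ℕ) (i j : Fin 6) : mk c i j = en c i.val j.val := rfl

theorem sum_enc (f : ℕ → F4) : ∑ k : Fin 6, f k.val = f 0 + f 1 + f 2 + f 3 + f 4 + f 5 := by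
  rw [Fin.sum_univ_six]
  rfl

/-- the check that the matrix with the code `c` is the product of those with the codes `a`, `b` -/
def mulB (a b c : ℕ) : Bool :=
  (List.range 6).all fun m => (List.range 6).all fun n =>
    decide (en a m 0 * en b 0 n + en a m 1 * en b 1 n + en a m 2 * en b 2 n + en a m 3 * en b 3 n +
      en a m 4 * en b 4 n + en a m 5 * en b 5 n = en c m n)

theorem mul_spec (a b c : ℕ) (h : mulB a b c = true) : mk a * mk b = mk c := by
  ext i j
  rw [Matrix.mul_apply]
  simp only [mk_apply]
  rw [sum_enc (fun k => en a i.val k * en b k j.val)]
  have h1 := List.all_eq_true.mp (List.all_eq_true.mp h i.val (List.mem_range.mpr i.2))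
    j.val (List.mem_range.mpr j.2)
  exact of_decide_eq_true h1

/-- the codes of the matrices of the generators `c, d, e, f, g, h, i, u` -/
def cds : List ℕ := [295436139953819500545, 720350869298954125313, 479948877336674320385, 1180663682024633475308, 572205027720953872385, 1180663680099398127860, 1180663682709764186124, 1180663682709764182020]

/-- the code of the matrix of a generator -/
def cd (s : ℕ) : ℕ := cds.getD s idc

theorem cd_ge (s : ℕ) (hs : 8 ≤ s) : cd s = idc := by
  unfold cd
  exact List.getD_eq_default _ _ (by simpa [cds] using hs)

theorem M_sq : ∀ s, mk (cd s) * mk (cd s) = 1 := by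
  intro s
  by_cases hs : s < 8
  · rw [← mk_idc]
    interval_cases s <;> exact mul_spec _ _ _ (by decide +kernel)
  · rw [cd_ge s (by omega), mk_idc, one_mul]

theorem M_det (s : ℕ) : (mk (cd s)).det = 1 := by
  have h := congrArg Matrix.det (M_sq s)
  rw [Matrix.det_mul, Matrix.det_one] at h
  have key : ∀ x : F4, x * x = 1 → x = 1 := by decide
  exact key _ h

/-- the Frobenius map of the field with four elements -/
def frob : F4 →+* F4 where
  toFun := fun x => x ^ 2
  map_one' := by decide
  map_mul' := by decide
  map_zero' := by decide
  map_add' := by decide

theorem M_herm : ∀ s, (mk (cd s)).transpose * (mk (cd s)).map frob = 1 := by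
  intro s
  by_cases hs : s < 8
  · interval_cases s <;> decide +kernel
  · rw [cd_ge s (by omega)]
    decide +kernel

/-- a matrix `M` with `Mᵀ * Frob(M) = 1` preserves the Hermitian form -/
theorem herm_pres (M : Matrix (Fin 6) (Fin 6) F4) (hM : M.transpose * M.map frob = 1)
    (u v : Fin 6 → F4) :
    Cfsg.hermForm 6 F4 2 (M.mulVec u) (M.mulVec v) = Cfsg.hermForm 6 F4 2 u v := by
  have e1 : ∀ a b : Fin 6 → F4, Cfsg.hermForm 6 F4 2 a b = a ⬝ᵥ (fun i => frob (b i)) := by
    intro a b
    rfl
  have e2 : (fun i => frob (M.mulVec v i)) = (M.map frob).mulVec (fun i => frob (v i)) := by
    funext i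
    simp only [Matrix.mulVec, dotProduct, map_sum, map_mul, Matrix.map_apply]
  rw [e1, e1, e2]
  calc M.mulVec u ⬝ᵥ (M.map frob).mulVec (fun i => frob (v i))
      = Matrix.vecMul u M.transpose ⬝ᵥ (M.map frob).mulVec (fun i => frob (v i)) := by
        rw [Matrix.vecMul_transpose]
    _ = u ⬝ᵥ M.transpose.mulVec ((M.map frob).mulVec (fun i => frob (v i))) := by
        exact (Matrix.dotProduct_mulVec u M.transpose _).symm
    _ = u ⬝ᵥ (fun i => frob (v i)) := by
        rw [Matrix.mulVec_mulVec, hM, Matrix.one_mulVec]

/-- the images of the generators in the special linear group -/
def sl (s : ℕ) : Matrix.SpecialLinearGroup (Fin 6) F4 := ⟨mk (cd s), M_det s⟩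

theorem sl_mat (s : ℕ) : Cfsg.slToMat 6 F4 (sl s) = mk (cd s) := rfl

/-- the images of the generators in the special unitary group -/
def su (s : ℕ) : Cfsg.SU 6 F4 2 :=
  ⟨sl s, fun u v => by rw [sl_mat]; exact herm_pres _ (M_herm s) u v⟩

/-- the matrix of an element of the special unitary group -/
def mat : Cfsg.SU 6 F4 2 →* Matrix (Fin 6) (Fin 6) F4 :=
  (Cfsg.slToMat 6 F4).comp (Cfsg.SU 6 F4 2).subtype

theorem mat_inj : Function.Injective mat := by
  intro a b h
  apply Subtype.ext
  apply Subtype.ext
  exact h

theorem mat_su (s : ℕ) : mat (su s) = mk (cd s) := rfl

/-- an element whose matrix is scalar is central -/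
theorem central_of_scalar (x : Cfsg.SU 6 F4 2) (c : F4) (h : mat x = c • (1 : Matrix (Fin 6) (Fin 6) F4)) :
    x ∈ Subgroup.center (Cfsg.SU 6 F4 2) := by
  rw [Subgroup.mem_center_iff]
  intro y
  apply mat_inj
  rw [map_mul, map_mul, h, Matrix.smul_mul, Matrix.mul_smul, one_mul, mul_one]

/-! ### The relators -/

/-- the check of a chain of partial products of a relator -/
def chainB : List ℕ → List ℕ → Bool
  | [], [c] => c == idc
  | s :: w, c :: c' :: cs => mulB (cd s) c' c && chainB w (c' :: cs)
  | _, _ => false

theorem chain_spec : ∀ (w cs : List ℕ), chainB w cs = true →
    ∀ c rest, cs = c :: rest → (w.map (fun s => mk (cd s))).prod = mk c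
  | [], cs, h => by
    intro c rest e
    match cs, h, e with
    | [c'], h, e =>
      have hc : c' = idc := by simpa [chainB] using h
      have e' : c = c' := (List.cons.inj e).1.symm
      rw [e', hc, mk_idc]
      rfl
  | s :: w, cs, h => by
    intro c rest e
    match cs, h, e with
    | c0 :: c' :: cs', h, e =>
      have h' : mulB (cd s) c' c0 = true ∧ chainB w (c' :: cs') = true := by
        simpa [chainB] using h
      have e' : c = c0 := (List.cons.inj e).1.symm
      rw [List.map_cons, List.prod_cons, chain_spec w (c' :: cs') h'.2 c' cs' rfl, mul_spec _ _ _ h'.1, e']

/-- the codes of the scalar matrices -/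
def scs : List ℕ := [1180663682709764194305, 2361327365419528388610, 3541991048129292582915]

theorem mk_scalar : ∀ c ∈ scs, ∃ x : F4, mk c = x • (1 : Matrix (Fin 6) (Fin 6) F4) := by
  intro c hc
  simp only [scs, List.mem_cons, List.not_mem_nil, or_false] at hc
  rcases hc with rfl | rfl | rfl
  · exact ⟨F4.o, by decide +kernel⟩
  · exact ⟨F4.w, by decide +kernel⟩
  · exact ⟨F4.v, by decide +kernel⟩

/-- the check of all relators: the product is a scalar matrix -/
def relsB : List (List ℕ) → List (List ℕ) → Bool
  | [], [] => true
  | w :: ws, c :: cs => (chainB w c && scs.contains (c.headD 0)) && relsB ws cs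
  | _, _ => false

theorem rels_spec : ∀ (ws cs : List (List ℕ)), relsB ws cs = true →
    ∀ w ∈ ws, ∃ x : F4, (w.map (fun s => mk (cd s))).prod = x • (1 : Matrix (Fin 6) (Fin 6) F4)
  | [], _, _ => by intro w hw; simp at hw
  | w0 :: ws, cs, h => by
    match cs, h with
    | c :: cs', h =>
      have h' : (chainB w0 c = true ∧ scs.contains (c.headD 0) = true) ∧ relsB ws cs' = true := by
        simpa [relsB] using h
      intro w hw
      rcases List.mem_cons.mp hw with rfl | hw
      · obtain ⟨c0, rest, rfl⟩ : ∃ c0 rest, c = c0 :: rest := by
          cases c with
          | nil => simp [chainB] at h'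
          | cons a l => exact ⟨a, l, rfl⟩
        have hc : c0 ∈ scs := by
          have := h'.1.2
          simpa using this
        rw [chain_spec w (c0 :: rest) h'.1.1 c0 rest rfl]
        exact mk_scalar c0 hc
      · exact rels_spec ws cs' h'.2 w hw

/-- the chains of partial products of the relators -/
def CS : List (List ℕ) := [
  [1180663682709764194305, 295436139953819500545, 2490589834818172764161, 1144306280210173542401, 3800205028470678372353, 720350869298954125313, 1180663682709764194305],
  [1180663682709764194305, 295436139953819500545, 1365176420092619014145, 479948877336674320385, 1180663682709764194305],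
  [1180663682709764194305, 295436139953819500545, 295436139268688781548, 1180663682024633475308, 1180663682709764194305],
  [1180663682709764194305, 295436139953819500545, 1457432570476898566145, 572205027720953872385, 1180663682709764194305],
  [1180663682709764194305, 295436139953819500545, 295436137343453434100, 1180663680099398127860, 1180663682709764194305],
  [1180663682709764194305, 295436139953819500545, 295436139953819492364, 1180663682709764186124, 1180663682709764194305],
  [1180663682709764194305, 295436139953819500545, 295436139953819488260, 1180663682709764182020, 1180663682709764194305],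
  [1180663682709764194305, 720350869298954125313, 3007152602129627103233, 221433127216309354497, 3874744059723799085057, 479948877336674320385, 1180663682709764194305],
  [1180663682709764194305, 720350869298954125313, 720350870809088565484, 1180663682024633475308, 1180663682709764194305],
  [1180663682709764194305, 720350869298954125313, 2214262528502201860097, 572205027720953872385, 1180663682709764194305],
  [1180663682709764194305, 720350869298954125313, 720350963421999930212, 848314547446077594468, 848314470499043184884, 1180663680099398127860, 1180663682709764194305],
  [1180663682709764194305, 720350869298954125313, 720350869298954117132, 1180663682709764186124, 1180663682709764194305],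
  [1180663682709764194305, 720350869298954125313, 720350869298954113028, 1180663682709764182020, 1180663682709764194305],
  [1180663682709764194305, 479948877336674320385, 479948801839392960444, 542221752087986646972, 542221846686514749676, 1180663682024633475308, 1180663682709764194305],
  [1180663682709764194305, 479948877336674320385, 1272920009058853863425, 572205027720953872385, 1180663682709764194305],
  [1180663682709764194305, 479948877336674320385, 479948881321767407860, 1180663680099398127860, 1180663682709764194305],
  [1180663682709764194305, 479948877336674320385, 479948877336674312204, 1180663682709764186124, 1180663682709764194305],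
  [1180663682709764194305, 479948877336674320385, 479948877336674308100, 1180663682709764182020, 1180663682709764194305],
  [1180663682709764194305, 1180663682024633475308, 418829039888669024492, 418828945354575915708, 572204952288107506364, 572205027720953872385, 1180663682709764194305],
  [1180663682709764194305, 1180663682024633475308, 1180663685736659709977, 1180663680099398127860, 1180663682709764194305],
  [1180663682709764194305, 1180663682024633475308, 1180663682024633483489, 1180663682709764186124, 1180663682709764194305],
  [1180663682709764194305, 1180663682024633475308, 1180663682024633974898, 1180663682230842699896, 1180663682230842261731, 1180663682709764182020, 1180663682709764194305],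
  [1180663682709764194305, 572205027720953872385, 572205031706046959860, 1180663680099398127860, 1180663682709764194305],
  [1180663682709764194305, 572205027720953872385, 572205027720953864204, 1180663682709764186124, 1180663682709764194305],
  [1180663682709764194305, 572205027720953872385, 572205027720953860100, 1180663682709764182020, 1180663682709764194305],
  [1180663682709764194305, 1180663680099398127860, 1180663680099397501091, 1180663679893188718760, 1180663679893189411058, 1180663682709764186124, 1180663682709764194305],
  [1180663682709764194305, 1180663680099398127860, 1180663680099398140145, 1180663682709764182020, 1180663682709764194305],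
  [1180663682709764194305, 1180663682709764186124, 1180663682709764227074, 1180663682709764190216, 1180663682709764210691, 1180663682709764182020, 1180663682709764194305],
  [3541991048129292582915, 554019546284521734147, 1513520251804248489987, 1513520320833873124376, 1513520320833873169427, 1513520485101909007050, 3900940995429821012682, 2920115320334521948874, 2920115320334530159349, 2920115395893343153737, 2920115395893336271161, 2920115257388689911081, 1662832757965089008937, 3957743903380543761705, 3957743903380553765790, 3957743842884055309438, 3957743842884051367159, 3957743842884051760279, 3957743709052261806155, 3957743709052262207510, 545681460642542309398, 1180663685118234775574, 1180663680099398140145, 1180663680099398127860, 1180663682709764194305],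
  [1180663682709764194305, 295436139953819500545, 2490589834818172764161, 3006936534900629585921, 221649194445306871809, 221649162984589828396, 1501236365726562066732, 1638418816672012116268, 1638418788917331271924, 1957929494008991490292, 323106255382947733748, 323106259095426629633, 323106259095422768048, 323106292703779062423, 1403238853057001521815, 1290236494523092140695, 1290236493904667157149, 479930553074681324189, 4300288039649395548829, 316044466725096465053, 316044332840488605263, 316044507344411071319, 1428358272137274102615, 4265005385057039586135, 1807545242457338057559, 1807545242457325535049, 3007152682117507678025, 3007152739929819391020, 3007152602129627103233, 720350869298954125313, 1180663682709764194305],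
  [1180663682709764194305, 295436139953819500545, 2490589834818172764161, 3006936534900629585921, 3006936567186354020652, 3794790215916084994348, 3794790291067118124873, 3794790291067111008510, 2153430888873796888830, 613579761187288574206, 4013080382174658095358, 4013080384647821142246, 3329237089648201312486, 3329237288151784931912, 3329237288151772875272, 3083724961840553839112, 3725583849766646237704, 4321503233149721168392, 4321503152528529952851, 4000047173390326435923, 4000047347895180170571, 4000047347895181563687, 2304513864309251036967, 2592308006907739166503, 4522918938147331561255, 4522918760065327088180, 969318783585526399540, 969318824071147189247, 969318824071147115486, 3542011370205611381726, 1080944909699444462558, 1260067256839731237854, 1260067331994364345467, 590923722590098488443, 590923580236741777501, 590923580236754477127, 2571159151141328674887, 2095460364824198406215, 4524070738523155226695, 4524070731305110589601, 2819383494459211501729, 2819383665185952871751, 2819383665185954240294, 2009077724355968407334, 212452965690569692966, 1590003577753786947366, 1590003717340635194136, 4597511784911317099288, 4597511887215989558454, 4597511887215980821280, 3334218414741351414560,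 513788362666651007776, 2910144940305342642976, 2910144981373195179165, 2738388120662101251229, 2738388020332552804885, 2738388020332552432207, 816937090939115186767, 3402164971120222186063, 572204948647333505615, 572205031499838243058, 1180663679893189411058, 1180663682709764186124, 1180663682709764194305],
  [1180663682709764194305, 720350869298954125313, 3007152602129627103233, 221433127216309354497, 221432990241137042476, 1501452538470027437100, 1638634989415477486636, 1638634856133453324532, 2844021675116842623220, 1208333798151786766580, 1208333801864265662465, 1208333801864252366000, 1208333941038616119447, 518011204722177050775, 405008846188267669655, 405008845569842686109, 1186498898451845294237, 1186498932334408137122, 1088812511437542029730, 3229444755170158344610, 3229444865371698558762, 3229444865371701159087, 3229444752702538799669, 3957264978264258796085, 716617341844348230197, 716617447850963095506, 716617447850968427196, 3402164965554834451132, 572204952288107506364, 572205027720953872385, 1180663682709764194305]]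

theorem rels_ok : relsB W0 CS = true := by decide +kernel

/-! ### The homomorphism onto the projective special unitary group -/

/-- the images of the generators in the projective group -/
def pu (s : ℕ) : Cfsg.PSU 6 F4 2 := QuotientGroup.mk (su s)

theorem su_sq : ∀ s, su s * su s = 1 := fun s => mat_inj (by
  rw [map_mul, mat_su, M_sq, map_one])

theorem su_ge : ∀ s, 8 ≤ s → su s = 1 := fun s hs => mat_inj (by
  rw [mat_su, cd_ge s hs, mk_idc, map_one])

theorem pu_sq : ∀ s, pu s * pu s = 1 := by
  intro s
  show (QuotientGroup.mk (su s) : Cfsg.PSU 6 F4 2) * QuotientGroup.mk (su s) = 1
  rw [← QuotientGroup.mk_mul, su_sq]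
  rfl

theorem pu_ge : ∀ s, 8 ≤ s → pu s = 1 := by
  intro s hs
  show (QuotientGroup.mk (su s) : Cfsg.PSU 6 F4 2) = 1
  rw [su_ge s hs]
  rfl

theorem pu_rel : ∀ w ∈ W0, (w.map pu).prod = 1 := by
  intro w hw
  have e : (w.map pu).prod = QuotientGroup.mk' (Subgroup.center (Cfsg.SU 6 F4 2)) ((w.map su).prod) := by
    rw [map_list_prod, List.map_map]
    rfl
  rw [e]
  show (QuotientGroup.mk ((w.map su).prod) : Cfsg.PSU 6 F4 2) = 1
  rw [QuotientGroup.eq_one_iff]
  obtain ⟨x, hx⟩ := rels_spec W0 CS rels_ok w hw
  apply central_of_scalar _ x
  rw [map_list_prod, List.map_map]
  exact hx

/-- the homomorphism of the presented group into the projective special unitary group -/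
noncomputable def θ : WP 8 W0 →* Cfsg.PSU 6 F4 2 := WP.lift 8 W0 pu pu_sq pu_ge pu_rel

theorem θ_gen (s : ℕ) : θ (WP.gen 8 W0 s) = pu s := WP.lift_gen 8 W0 pu pu_sq pu_ge pu_rel s

theorem θ_ne : θ (WP.gen 8 W0 0) ≠ 1 := by
  intro h
  rw [θ_gen] at h
  have h1 : su 0 ∈ Subgroup.center (Cfsg.SU 6 F4 2) := (QuotientGroup.eq_one_iff _).mp h
  have h2 := Subgroup.mem_center_iff.mp h1 (su 1)
  have h3 := congrArg mat h2
  rw [map_mul, map_mul, mat_su, mat_su] at h3
  revert h3
  decide +kernel

theorem card_PSU : Nat.card (Cfsg.PSU 6 F4 2) = 9196830720 := by
  have h := Cfsg.Agent.S0280.result (F := F4) (q := 2) (by rw [F4.card]; norm_num) 6 (by norm_num)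
  norm_num [Finset.prod_range_succ] at h
  omega

/-- the presented group is isomorphic to the projective special unitary group -/
theorem equiv_PSU : Nonempty (WP 8 W0 ≃* Cfsg.PSU 6 F4 2) := by
  have := simple
  have hinj : Function.Injective θ := injective_of_simple θ _ θ_ne
  have hfin : Finite (Cfsg.PSU 6 F4 2) :=
    Nat.finite_of_card_ne_zero (by rw [card_PSU]; norm_num)
  have hbij : Function.Bijective θ :=
    hinj.bijective_of_nat_card_le (by rw [card_PSU, card_eq])
  exact ⟨MulEquiv.ofBijective θ hbij⟩

end Cfsg.Agent.Lib.Helper38.U6
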