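import Cfsg.Agent.S1696
import Cfsg.Agent.Lib.Helper38.CosetTransp
import Cfsg.Agent.Lib.Helper38.CosetCover
import Cfsg.Agent.Lib.Helper38.U6Mat

/-!
The subgroup `K = ⟨a, c, d, e, f, g, h, i, (abcdeh)⁵⟩` of the presented Fischer group `Fi₂₂` is a
non-split double cover of `U₆(2)`: its central quotient is the image of the presented group
`WP 8 U6.W0` under `c, d, e, f, g, h, i, u ↦ c, d, e, f, g, h, i, bacb·dcedhdecd·bcab`, whose
relators hold in `K` up to the central involution `a`.
-/

set_option autoImplicit false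
set_option maxRecDepth 100000
set_option maxHeartbeats 0

namespace Cfsg.Agent.Lib.Helper38.Fi22U6

open Cfsg.Agent.Lib.Helper38 Cfsg.Agent.Lib.Helper38.Fi22P

/-- the presented Fischer group -/
abbrev G : Type := PresentedGroup rels

/-- its generators -/
noncomputable abbrev γ : ℕ → G := fun s => PresentedGroup.of (gen s)

/-- the subgroup -/
abbrev Kg : Subgroup G :=
  (Subgroup.closure Cfsg.Agent.S1687.S).map (PresentedGroup.mk rels)

theorem hγ : ∀ s, γ s * γ s = 1 := Cfsg.Agent.S1696.B_hP.hγ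

/-! ### Words -/

/-- the word `w` fixes the base points -/
noncomputable def chkB (w : List ℕ) : Bool :=
  ([0, 1, 2, 10677, 3] : List ℕ).all
    (fun p => band (Nat.blt p Fi22B.cert.n) (Nat.beq (Fi22B.cert.pw w p) p))

/-- a word fixing the base points is trivial -/
theorem word_one (w : List ℕ) (h : chkB w = true) : (w.map γ).prod = 1 := by
  obtain ⟨φ, hφ, -, hbase⟩ := Cfsg.Agent.S1696.order_and_base
  exact list_one_of_base Cfsg.Agent.S1696.B_hC φ hφ _ hbase w h

/-- two words with the same action on the base points are equal -/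
theorem word_eq (u v : List ℕ) (h : chkB (u ++ v.reverse) = true) :
    (u.map γ).prod = (v.map γ).prod := by
  have h1 := word_one _ h
  rw [List.map_append, List.prod_append, prod_reverse_inv hγ] at h1
  exact mul_inv_eq_one.mp h1

/-- a word fixing the trivial coset lies in the subgroup -/
theorem mem_Kg (w : List ℕ) (h : Nat.beq (Fi22x3510.cert.pw w 0) 0 = true) :
    (w.map γ).prod ∈ Kg := by
  obtain ⟨φ, hφ⟩ := Cfsg.Agent.S1687.hP.hφ
  have hH0 := Cert.phi_fix Cfsg.Agent.S1687.hP Cfsg.Agent.S1687.hC φ hφ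
  have hn : 0 < Fi22x3510.cert.n := (Fi22x3510.cert.chkG_spec Cfsg.Agent.S1687.hC.hG).2.2.1
  have e1 := (Cert.F_equiv Cfsg.Agent.S1687.hP Cfsg.Agent.S1687.hC φ hφ hH0 ((w.map γ).prod) hn).1
  rw [beq_iff] at h
  rw [Cert.phi_list Cfsg.Agent.S1687.hC φ hφ w 0 (by rw [h]; exact hn), h,
    Cert.F_zero Cfsg.Agent.S1687.hC, MulAction.Quotient.smul_mk, smul_eq_mul, mul_one,
    QuotientGroup.eq, mul_one, inv_mem_iff] at e1
  exact e1

/-! ### The generators of `U₆(2)` in the Fischer group -/

/-- the words of the generators of `U₆(2)` in the Fischer group -/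
def σ (s : ℕ) : List ℕ :=
  [[2], [3], [4], [5], [6], [7], [8],
    [1, 0, 2, 1, 3, 2, 4, 3, 7, 3, 4, 2, 3, 1, 2, 0, 1]].getD s []

theorem σ_ge (s : ℕ) (hs : 8 ≤ s) : σ s = [] := by
  unfold σ
  exact List.getD_eq_default _ _ (by simpa using hs)

/-- the images of the generators -/
noncomputable def f (s : ℕ) : G := ((σ s).map γ).prod

theorem f_ge (s : ℕ) (hs : 8 ≤ s) : f s = 1 := by
  unfold f
  rw [σ_ge s hs]
  rfl

theorem f_mem (s : ℕ) : f s ∈ Kg := by
  by_cases hs : s < 8
  · exact mem_Kg _ (by interval_cases s <;> decide +kernel)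
  · rw [f_ge s (by omega)]
    exact one_mem _

/-- the generators, in the subgroup -/
noncomputable def k (s : ℕ) : ↥Kg := ⟨f s, f_mem s⟩

theorem k_ge (s : ℕ) (hs : 8 ≤ s) : k s = 1 := Subtype.ext (f_ge s hs)

theorem k_prod (u : List ℕ) : (((u.map k).prod : ↥Kg) : G) = ((u.flatMap σ).map γ).prod := by
  induction u with
  | nil => rfl
  | cons s u ih =>
    rw [List.map_cons, List.prod_cons, Subgroup.coe_mul, ih, List.flatMap_cons, List.map_append,
      List.prod_append]
    rfl

/-- a word in the generators which is trivial on the base points -/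
theorem k_word_one (u : List ℕ) (h : chkB (u.flatMap σ) = true) : (u.map k).prod = 1 :=
  Subtype.ext (by rw [k_prod]; exact word_one _ h)

theorem k_sq (s : ℕ) : k s * k s = 1 := by
  have key : chkB (([s, s] : List ℕ).flatMap σ) = true := by
    by_cases hs : s < 8
    · interval_cases s <;> decide +kernel
    · show chkB (σ s ++ (σ s ++ [])) = true
      rw [σ_ge s (by omega)]
      decide +kernel
  have h := k_word_one [s, s] key
  rwa [List.map_cons, List.map_singleton, List.prod_cons, List.prod_singleton] at h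

/-! ### The central involution -/

theorem a_comm : ∀ h ∈ Kg, h * γ 0 = γ 0 * h := by
  intro h hh
  have eK : Kg = _ := Cfsg.Agent.S1687.hP.hH
  rw [eK] at hh
  have key : ∀ w : List ℕ, chkB (w ++ ([0] ++ (w.reverse ++ [0]))) = true →
      (w.map γ).prod * γ 0 = γ 0 * (w.map γ).prod := by
    intro w hw
    have h1 := comm_of_word hγ w [0] rfl (word_one _ hw)
    rwa [List.map_singleton, List.prod_singleton] at h1
  refine comm_closure ?_ h hh
  rintro _ ⟨wid, h1, h2, rfl⟩
  have h1' : 48 ≤ wid := h1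
  have h2' : wid < 57 := h2
  interval_cases wid
  · rw [Cfsg.Agent.S1687.w_48]; exact key _ (by decide +kernel)
  · rw [Cfsg.Agent.S1687.w_49]; exact key _ (by decide +kernel)
  · rw [Cfsg.Agent.S1687.w_50]; exact key _ (by decide +kernel)
  · rw [Cfsg.Agent.S1687.w_51]; exact key _ (by decide +kernel)
  · rw [Cfsg.Agent.S1687.w_52]; exact key _ (by decide +kernel)
  · rw [Cfsg.Agent.S1687.w_53]; exact key _ (by decide +kernel)
  · rw [Cfsg.Agent.S1687.w_54]; exact key _ (by decide +kernel)
  · rw [Cfsg.Agent.S1687.w_55]; exact key _ (by decide +kernel)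
  · rw [Cfsg.Agent.S1687.w_56]; exact key _ (by decide +kernel)

theorem a_mem : γ 0 ∈ Kg := by
  have h := mem_Kg [0] (by decide +kernel)
  rwa [List.map_singleton, List.prod_singleton] at h

/-- the central involution, in the subgroup -/
noncomputable def aK : ↥Kg := ⟨γ 0, a_mem⟩

theorem aK_center : aK ∈ Subgroup.center ↥Kg := by
  rw [Subgroup.mem_center_iff]
  intro g
  apply Subtype.ext
  exact a_comm g g.2

/-! ### The homomorphism onto the central quotient -/

theorem rels_chk :
    U6.W0.all (fun w => chkB (w.flatMap σ) || chkB (w.flatMap σ ++ [0])) = true := by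
  decide +kernel

theorem k_rel : ∀ w ∈ U6.W0, (w.map k).prod ∈ Subgroup.center ↥Kg := by
  intro w hw
  have h := List.all_eq_true.mp rels_chk w hw
  rw [Bool.or_eq_true] at h
  rcases h with h | h
  · rw [k_word_one w h]
    exact one_mem _
  · have e : (w.map k).prod = aK := Subtype.ext (by
      rw [k_prod]
      have h1 := word_one _ h
      rw [List.map_append, List.prod_append, List.map_singleton, List.prod_singleton] at h1
      exact (eq_inv_of_mul_eq_one_left h1).trans (inv_eq_of_mul_eq_one_left (hγ 0)))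
    rw [e]
    exact aK_center

/-- the images of the generators in the central quotient -/
noncomputable def q (s : ℕ) : ↥Kg ⧸ Subgroup.center ↥Kg :=
  QuotientGroup.mk' (Subgroup.center ↥Kg) (k s)

theorem q_sq (s : ℕ) : q s * q s = 1 := by
  unfold q
  rw [← map_mul, k_sq, map_one]

theorem q_ge (s : ℕ) (hs : 8 ≤ s) : q s = 1 := by
  unfold q
  rw [k_ge s hs, map_one]

theorem q_rel : ∀ w ∈ U6.W0, (w.map q).prod = 1 := by
  intro w hw
  have e : (w.map q).prod = QuotientGroup.mk' (Subgroup.center ↥Kg) ((w.map k).prod) := by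
    rw [map_list_prod, List.map_map]
    rfl
  rw [e]
  exact (QuotientGroup.eq_one_iff _).mpr (k_rel w hw)

/-- the homomorphism of `U₆(2)` onto the central quotient of the subgroup -/
noncomputable def ψ : WP 8 U6.W0 →* ↥Kg ⧸ Subgroup.center ↥Kg :=
  WP.lift 8 U6.W0 q q_sq q_ge q_rel

theorem ψ_gen (s : ℕ) : ψ (WP.gen 8 U6.W0 s) = q s := WP.lift_gen 8 U6.W0 q q_sq q_ge q_rel s

/-! ### Generation -/

/-- a word of the Fischer group which agrees on the base points with a word in the generators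
of `U₆(2)` lies in the subgroup they generate -/
theorem mem_closure (u v : List ℕ) (hv : ∀ s ∈ v, s < 8)
    (h : chkB (u ++ (v.flatMap σ).reverse) = true) :
    (u.map γ).prod ∈ Subgroup.closure (f '' {s | s < 8}) := by
  have e : ((v.flatMap σ).map γ).prod = (v.map f).prod := by
    clear h hv
    induction v with
    | nil => rfl
    | cons s v ih =>
      rw [List.map_cons, List.prod_cons, ← ih, List.flatMap_cons, List.map_append,
        List.prod_append]
      rfl
  rw [word_eq u _ h, e]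
  apply Subgroup.list_prod_mem
  intro x hx
  obtain ⟨s, hs, rfl⟩ := List.mem_map.mp hx
  exact Subgroup.subset_closure ⟨s, hv s hs, rfl⟩

/-- a word in the generators of `U₆(2)` for the central involution `a` -/
def aw : List ℕ :=
  [0, 1, 2, 1, 3, 2, 1, 5, 1, 2, 3, 7, 3, 2, 1, 5, 0, 1, 2, 3, 5, 1, 0, 2, 7, 1, 5, 3, 2, 1]

/-- a word in the generators of `U₆(2)` for `(abcdeh)⁵` -/
def tw : List ℕ := [7, 0, 1, 0, 2, 1, 5, 1, 2, 0, 1, 2, 5] ++ aw

theorem Kg_le : Kg ≤ Subgroup.closure (f '' {s | s < 8}) := by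
  have eK : Kg = _ := Cfsg.Agent.S1687.hP.hH
  rw [eK, Subgroup.closure_le]
  rintro _ ⟨wid, h1, h2, rfl⟩
  have h1' : 48 ≤ wid := h1
  have h2' : wid < 57 := h2
  interval_cases wid
  · rw [Cfsg.Agent.S1687.w_48]; exact mem_closure _ aw (by decide) (by decide +kernel)
  · rw [Cfsg.Agent.S1687.w_49]; exact mem_closure _ [0] (by decide) (by decide +kernel)
  · rw [Cfsg.Agent.S1687.w_50]; exact mem_closure _ [1] (by decide) (by decide +kernel)
  · rw [Cfsg.Agent.S1687.w_51]; exact mem_closure _ [2] (by decide) (by decide +kernel)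
  · rw [Cfsg.Agent.S1687.w_52]; exact mem_closure _ [3] (by decide) (by decide +kernel)
  · rw [Cfsg.Agent.S1687.w_53]; exact mem_closure _ [4] (by decide) (by decide +kernel)
  · rw [Cfsg.Agent.S1687.w_54]; exact mem_closure _ [5] (by decide) (by decide +kernel)
  · rw [Cfsg.Agent.S1687.w_55]; exact mem_closure _ [6] (by decide) (by decide +kernel)
  · rw [Cfsg.Agent.S1687.w_56]; exact mem_closure _ tw (by decide) (by decide +kernel)

theorem closure_f : Subgroup.closure (f '' {s | s < 8}) = Kg := by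
  apply le_antisymm _ Kg_le
  rw [Subgroup.closure_le]
  rintro _ ⟨s, -, rfl⟩
  exact f_mem s

theorem closure_k : Subgroup.closure (k '' {s | s < 8}) = ⊤ := by
  apply Subgroup.map_injective (Subgroup.subtype_injective Kg)
  rw [MonoidHom.map_closure, ← MonoidHom.range_eq_map, Subgroup.range_subtype, ← Set.image_comp]
  exact closure_f

theorem ψ_surj : Function.Surjective ψ := by
  rw [← MonoidHom.range_eq_top, eq_top_iff]
  have h1 : (QuotientGroup.mk' (Subgroup.center ↥Kg)).range = ⊤ :=
    MonoidHom.range_eq_top.mpr (QuotientGroup.mk'_surjective _)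
  rw [← h1, MonoidHom.range_eq_map, ← closure_k, MonoidHom.map_closure, Subgroup.closure_le]
  rintro _ ⟨_, ⟨s, -, rfl⟩, rfl⟩
  exact ⟨WP.gen 8 U6.W0 s, ψ_gen s⟩

/-! ### The order -/

theorem card_Kg : Nat.card ↥Kg = 18393661440 := by
  have h1 := Subgroup.card_mul_index Kg
  have hc : Nat.card G = 64561751654400 := Cfsg.Agent.S1696.result.2
  have hn : Fi22x3510.cert.n = 3510 := by decide +kernel
  rw [Cert.index_eq Cfsg.Agent.S1687.hP Cfsg.Agent.S1687.hC, hc, hn] at h1
  omega

/-! ### Conjugacy of the generators, and a relator of odd length -/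

theorem k_rel3 (a b : ℕ) (h : chkB (([a, b, a, b, a, b] : List ℕ).flatMap σ) = true) :
    IsConj (k a) (k b) :=
  isConj_of_rel k_sq a b (k_word_one _ h)

theorem c01 : IsConj (k 0) (k 1) := k_rel3 0 1 (by decide +kernel)
theorem c12 : IsConj (k 1) (k 2) := k_rel3 1 2 (by decide +kernel)
theorem c23 : IsConj (k 2) (k 3) := k_rel3 2 3 (by decide +kernel)
theorem c34 : IsConj (k 3) (k 4) := k_rel3 3 4 (by decide +kernel)
theorem c15 : IsConj (k 1) (k 5) := k_rel3 1 5 (by decide +kernel)
theorem c56 : IsConj (k 5) (k 6) := k_rel3 5 6 (by decide +kernel)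
theorem c37 : IsConj (k 3) (k 7) := k_rel3 3 7 (by decide +kernel)

theorem conj_k : ∀ s < 8, IsConj (k 0) (k s) := by
  intro s hs
  interval_cases s
  · exact IsConj.refl _
  · exact c01
  · exact c01.trans c12
  · exact (c01.trans c12).trans c23
  · exact ((c01.trans c12).trans c23).trans c34
  · exact c01.trans c15
  · exact (c01.trans c15).trans c56
  · exact ((c01.trans c12).trans c23).trans c37

/-- a relator of odd length: `(cdefghi)⁹` -/
def oddw : List ℕ := [0, 1, 2, 3, 4, 5, 6, 0, 1, 2, 3, 4, 5, 6, 0, 1, 2, 3, 4, 5, 6, 0, 1, 2, 3, 4, 5, 6, 0, 1, 2, 3, 4, 5, 6, 0, 1, 2, 3, 4, 5, 6, 0, 1, 2, 3, 4, 5, 6, 0, 1, 2, 3, 4, 5, 6, 0, 1, 2, 3, 4, 5, 6]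

theorem oddw_one : (oddw.map k).prod = 1 := k_word_one oddw (by decide +kernel)

theorem perfect : ∀ (N : Subgroup ↥Kg) [N.Normal], (∀ x y : ↥Kg ⧸ N, x * y = y * x) → N = ⊤ :=
  perfect_image (MonoidHom.id ↥Kg) (fun x => ⟨x, rfl⟩) k 8 closure_k 0 (k_sq 0)
    (fun s hs => Or.inr (conj_k s hs)) oddw
    (fun s hs => conj_k s ((by decide : ∀ s ∈ oddw, s < 8) s hs)) (by decide) oddw_one

/-! ### The double cover -/

theorem cover : Cfsg.IsNonsplitDoubleCover ↥Kg (WP 8 U6.W0) := by
  have := U6.simple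
  have := U6.fin
  refine double_cover_of ψ ψ_surj (by rw [card_Kg, U6.card_eq]) ?_ perfect
  by_contra hcomm
  have hcomm' : ∀ x y : ↥Kg, x * y = y * x := by
    intro x y
    by_contra hxy
    exact hcomm ⟨x, y, hxy⟩
  have h1 := perfect ⊥ (fun x y => by
    obtain ⟨x, rfl⟩ := QuotientGroup.mk_surjective x
    obtain ⟨y, rfl⟩ := QuotientGroup.mk_surjective y
    rw [← QuotientGroup.mk_mul, ← QuotientGroup.mk_mul, hcomm' x y])
  have h2 : Nat.card (⊥ : Subgroup ↥Kg) = Nat.card ↥Kg := by
    rw [h1, Subgroup.card_top]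
  rw [Subgroup.card_bot, card_Kg] at h2
  omega

/-- **The subgroup is a non-split double cover of `PSU₆(2)`.** -/
theorem main : Cfsg.IsNonsplitDoubleCover ↥Kg (Cfsg.PSU 6 F4 2) := by
  obtain ⟨hZ, ⟨e⟩, hns⟩ := cover
  obtain ⟨e2⟩ := U6.equiv_PSU
  exact ⟨hZ, ⟨e.trans e2⟩, hns⟩

end Cfsg.Agent.Lib.Helper38.Fi22U6
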