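import Cfsg.Agent.Lib.Helper39.HeOrd
import Cfsg.Agent.Lib.Helper38.Sp4Iso

/-!
The subgroup `H = ⟨a, c, d, e, f, (ab)², (bcde)⁷⟩` of the presented Held group has a normal
subgroup of index 2 isomorphic to `Sp₄(4)`: the image of the presented group `Sp4.P` under
`a, c, d, e, f, z ↦ a, c, d, e, f, bcdgdcb`.  The image is normalised by the involution `(ab)²`,
and together with it contains the generators of `H`, so that its order is at least `|H| / 2`.
-/

set_option autoImplicit false
set_option maxRecDepth 100000
set_option maxHeartbeats 0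

namespace Cfsg.Agent.Lib.Helper38.HeSp4

open Cfsg.Agent.Lib.Helper38 Cfsg.Agent.Lib.Helper39.Ord Cfsg.Agent.Lib.Helper39.HeOrd

/-! ### A subgroup and its coset by an involution normalising it -/

section Join

variable {K : Type*} [Group K]

/-- the union of a subgroup with its coset by an involution normalising it -/
def joinInv (N : Subgroup K) (x : K) (hx : x * x = 1) (hN : ∀ n ∈ N, x * n * x ∈ N) :
    Subgroup K where
  carrier := {g | g ∈ N ∨ g * x ∈ N}
  mul_mem' := by
    rintro a b (ha | ha) (hb | hb)
    · exact Or.inl (mul_mem ha hb)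
    · right
      show a * b * x ∈ N
      rw [mul_assoc]
      exact mul_mem ha hb
    · right
      show a * b * x ∈ N
      have e : a * b * x = (a * x) * (x * b * x) := by
        calc a * b * x = a * (x * x) * b * x := by rw [hx, mul_one]
          _ = (a * x) * (x * b * x) := by group
      rw [e]
      exact mul_mem ha (hN b hb)
    · left
      show a * b ∈ N
      have e : a * b = (a * x) * (x * (b * x) * x) := by
        calc a * b = a * (x * x) * b * (x * x) := by rw [hx, mul_one, mul_one]
          _ = (a * x) * (x * (b * x) * x) := by group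
      rw [e]
      exact mul_mem ha (hN _ hb)
  one_mem' := Or.inl (one_mem N)
  inv_mem' := by
    rintro a (ha | ha)
    · exact Or.inl (inv_mem ha)
    · right
      show a⁻¹ * x ∈ N
      have hxi : x⁻¹ = x := inv_eq_of_mul_eq_one_left hx
      have e : a⁻¹ * x = x * (a * x)⁻¹ * x := by
        rw [mul_inv_rev, hxi]
        calc a⁻¹ * x = (x * x) * a⁻¹ * x := by rw [hx, one_mul]
          _ = x * (x * a⁻¹) * x := by group
      rw [e]
      exact hN _ (inv_mem ha)

theorem mem_joinInv {N : Subgroup K} {x : K} {hx : x * x = 1} {hN : ∀ n ∈ N, x * n * x ∈ N}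
    {g : K} : g ∈ joinInv N x hx hN ↔ g ∈ N ∨ g * x ∈ N := Iff.rfl

theorem card_joinInv_le [Finite K] (N : Subgroup K) (x : K) (hx : x * x = 1)
    (hN : ∀ n ∈ N, x * n * x ∈ N) : Nat.card (joinInv N x hx hN) ≤ 2 * Nat.card N := by
  have h1 : ((joinInv N x hx hN : Subgroup K) : Set K) ⊆
      (N : Set K) ∪ (fun n => n * x) '' (N : Set K) := by
    rintro g (hg | hg)
    · exact Or.inl hg
    · right
      refine ⟨g * x, hg, ?_⟩
      show g * x * x = g
      rw [mul_assoc, hx, mul_one]
  have e1 : Nat.card (joinInv N x hx hN) = ((joinInv N x hx hN : Subgroup K) : Set K).ncard :=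
    Nat.card_coe_set_eq _
  have e2 : Nat.card N = (N : Set K).ncard := Nat.card_coe_set_eq _
  rw [e1, e2]
  calc ((joinInv N x hx hN : Subgroup K) : Set K).ncard
      ≤ ((N : Set K) ∪ (fun n => n * x) '' (N : Set K)).ncard :=
        Set.ncard_le_ncard h1 (Set.toFinite _)
    _ ≤ (N : Set K).ncard + ((fun n => n * x) '' (N : Set K)).ncard := Set.ncard_union_le _ _
    _ ≤ (N : Set K).ncard + (N : Set K).ncard :=
        Nat.add_le_add_left (Set.ncard_image_le (Set.toFinite _)) _
    _ = 2 * (N : Set K).ncard := by ring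

/-- an involution conjugating the generators of a subgroup into it normalises it -/
theorem conj_closure {U : Set K} {x : K} (hx : x * x = 1)
    (hU : ∀ u ∈ U, x * u * x ∈ Subgroup.closure U) :
    ∀ n ∈ Subgroup.closure U, x * n * x ∈ Subgroup.closure U := by
  have hxi : x⁻¹ = x := inv_eq_of_mul_eq_one_left hx
  intro n hn
  induction hn using Subgroup.closure_induction with
  | mem y hy => exact hU y hy
  | one => rw [mul_one, hx]; exact one_mem _
  | mul a b _ _ ha hb =>
    have e : x * (a * b) * x = (x * a * x) * (x * b * x) := by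
      calc x * (a * b) * x = x * a * (x * x) * b * x := by rw [hx, mul_one]; group
        _ = (x * a * x) * (x * b * x) := by group
    rw [e]
    exact mul_mem ha hb
  | inv a _ ha =>
    have e : x * a⁻¹ * x = (x * a * x)⁻¹ := by
      rw [mul_inv_rev, mul_inv_rev, hxi, mul_assoc]
    rw [e]
    exact inv_mem ha

end Join

/-! ### The homomorphism of `Sp₄(4)` into the Held group -/

/-- the words of the generators of `Sp₄(4)` in the Held group -/
def σ (s : ℕ) : List ℕ := [[0], [2], [3], [4], [5], [1, 2, 3, 6, 3, 2, 1]].getD s []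

theorem σ_ge (s : ℕ) (hs : 6 ≤ s) : σ s = [] := by
  unfold σ
  exact List.getD_eq_default _ _ (by simpa using hs)

/-- the images of the generators -/
noncomputable def f (s : ℕ) : G := ((σ s).map γ).prod

theorem prod_flatMap (u : List ℕ) : (u.map f).prod = ((u.flatMap σ).map γ).prod := by
  induction u with
  | nil => rfl
  | cons s u ih =>
    rw [List.map_cons, List.prod_cons, ih, List.flatMap_cons, List.map_append, List.prod_append]
    rfl

/-- two words with the same action on the base points are equal -/
theorem word_eq (u v : List ℕ) (h : chkB (u ++ v.reverse) = true) :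
    (u.map γ).prod = (v.map γ).prod := by
  have h1 := word_one _ h
  rw [List.map_append, List.prod_append, prod_reverse_inv hγ] at h1
  exact mul_inv_eq_one.mp h1

theorem f_sq : ∀ s, f s * f s = 1 := by
  intro s
  have key : chkB (σ s ++ σ s) = true := by
    by_cases hs : s < 6
    · interval_cases s <;> decide +kernel
    · rw [σ_ge s (by omega)]
      decide +kernel
  have h1 := word_one _ key
  rwa [List.map_append, List.prod_append] at h1

theorem f_ge : ∀ s, 6 ≤ s → f s = 1 := by
  intro s hs
  unfold f
  rw [σ_ge s hs]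
  rfl

theorem rels_chk : Sp4.W0.all (fun w => chkB (w.flatMap σ)) = true := by decide +kernel

theorem f_rel : ∀ w ∈ Sp4.W0, (w.map f).prod = 1 := by
  intro w hw
  rw [prod_flatMap]
  exact word_one _ (List.all_eq_true.mp rels_chk w hw)

/-- the homomorphism of `Sp₄(4)` into the Held group -/
noncomputable def ψ : Sp4.P →* G := WP.lift 6 Sp4.W0 f f_sq f_ge f_rel

theorem ψ_gen (s : ℕ) : ψ (Sp4.δ s) = f s := WP.lift_gen 6 Sp4.W0 f f_sq f_ge f_rel s

theorem ψ_word (u : List ℕ) : ψ ((u.map Sp4.δ).prod) = ((u.flatMap σ).map γ).prod := by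
  rw [map_list_prod, List.map_map, ← prod_flatMap]
  congr 1
  apply List.map_congr_left
  intro s _
  exact ψ_gen s

/-- a word of the Held group which agrees on the base points with the image of a word of
`Sp₄(4)` lies in the image -/
theorem mem_range (u v : List ℕ) (h : chkB (u ++ (v.flatMap σ).reverse) = true) :
    (u.map γ).prod ∈ ψ.range := by
  rw [word_eq u _ h, ← ψ_word]
  exact ⟨_, rfl⟩

theorem range_eq : ψ.range = Subgroup.closure (f '' {s | s < 6}) := by
  rw [MonoidHom.range_eq_map, ← WP.closure_gen 6 Sp4.W0, MonoidHom.map_closure, ← Set.image_comp]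
  congr 1
  apply Set.image_congr
  intro s _
  exact ψ_gen s

/-- the involution `(ab)²` -/
noncomputable def x : G := (([0, 1, 0, 1] : List ℕ).map γ).prod

theorem x_sq : x * x = 1 := by
  have h := word_one ([0, 1, 0, 1] ++ [0, 1, 0, 1]) (by decide +kernel)
  rwa [List.map_append, List.prod_append] at h

/-- the conjugates of the generators by `(ab)²`, as words of `Sp₄(4)` -/
def cj (s : ℕ) : List ℕ := [[0], [0, 3, 1], [2], [3], [4], [0, 5, 0]].getD s []

theorem cj_chk : ∀ s < 6, chkB (([0, 1, 0, 1] ++ (σ s ++ [0, 1, 0, 1])) ++ ((cj s).flatMap σ).reverse) = true := by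
  decide +kernel

theorem x_conj : ∀ n ∈ ψ.range, x * n * x ∈ ψ.range := by
  rw [range_eq]
  apply conj_closure x_sq
  rintro _ ⟨s, hs, rfl⟩
  rw [← range_eq]
  have h := mem_range ([0, 1, 0, 1] ++ (σ s ++ [0, 1, 0, 1])) (cj s) (cj_chk s hs)
  rw [List.map_append, List.prod_append, List.map_append, List.prod_append, ← mul_assoc] at h
  exact h

/-- the image together with its coset by `(ab)²` -/
noncomputable def T : Subgroup G := joinInv ψ.range x x_sq x_conj

/-- a word of `Sp₄(4)` for `(bcde)⁷` -/
def tw : List ℕ := [3, 2, 1, 2, 1, 2, 4, 2, 1, 2, 1, 4, 2, 1, 5, 2, 1, 2, 5, 2, 5, 0, 4]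

theorem H1_le_T : H1 ≤ T := by
  rw [hP1.hH, Subgroup.closure_le]
  rintro _ ⟨wid, h1, h2, rfl⟩
  have h1' : 32 ≤ wid := h1
  have h2' : wid < 39 := h2
  interval_cases wid
  · rw [Cfsg.Agent.S1683.w_32]
    exact Or.inl (mem_range [0] [0] (by decide +kernel))
  · rw [Cfsg.Agent.S1683.w_33]
    exact Or.inl (mem_range [2] [1] (by decide +kernel))
  · rw [Cfsg.Agent.S1683.w_34]
    exact Or.inl (mem_range [3] [2] (by decide +kernel))
  · rw [Cfsg.Agent.S1683.w_35]
    exact Or.inl (mem_range [4] [3] (by decide +kernel))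
  · rw [Cfsg.Agent.S1683.w_36]
    exact Or.inl (mem_range [5] [4] (by decide +kernel))
  · rw [Cfsg.Agent.S1683.w_37]
    right
    show x * x ∈ ψ.range
    rw [x_sq]
    exact one_mem _
  · rw [Cfsg.Agent.S1683.w_38]
    exact Or.inl (mem_range _ tw (by decide +kernel))

theorem range_le_H1 : ψ.range ≤ H1 := by
  rw [range_eq, Subgroup.closure_le]
  rintro _ ⟨s, hs, rfl⟩
  have hs' : s < 6 := hs
  have hfix : fixB He2058.cert (σ s) 0 = true := by
    interval_cases s <;> decide +kernel
  have h := fix_of hA1 hfix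
  rw [Cert.F_zero hC1, MulAction.Quotient.smul_mk, smul_eq_mul, mul_one, QuotientGroup.eq, mul_one,
    inv_mem_iff] at h
  exact h

theorem card_H1 : Nat.card H1 = 1958400 := by
  have h1 := Subgroup.card_mul_index H1
  rw [Cert.index_eq hP1 hC1, he_card] at h1
  have hn : He2058.cert.n = 2058 := by decide +kernel
  rw [hn] at h1
  omega

theorem card_range : Nat.card ψ.range = 979200 := by
  have h1 : Nat.card H1 ≤ Nat.card T := Subgroup.card_le_of_le H1_le_T
  have h2 : Nat.card T ≤ 2 * Nat.card ψ.range := card_joinInv_le _ _ _ _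
  have h3 : Nat.card ψ.range ≤ Nat.card Sp4.P :=
    Nat.card_le_card_of_surjective ψ.rangeRestrict ψ.rangeRestrict_surjective
  rw [card_H1] at h1
  rw [Sp4.card_P] at h3
  omega

theorem ψ_inj : Function.Injective ψ := by
  have hb : Function.Bijective ψ.rangeRestrict :=
    ψ.rangeRestrict_surjective.bijective_of_nat_card_le (by rw [card_range, Sp4.card_P])
  intro a b h
  apply hb.1
  exact Subtype.ext h

/-- **The subgroup `Sp₄(4)` of index 2.** -/
theorem main : ∃ N : Subgroup H1, N.Normal ∧ N.index = 2 ∧
    Nonempty (N ≃* Matrix.symplecticGroup (Fin 2) F4) := by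
  have e1 : ψ.range.subgroupOf H1 ≃* ψ.range := Subgroup.subgroupOfEquivOfLe range_le_H1
  have hc : Nat.card (ψ.range.subgroupOf H1) = 979200 := by
    rw [Nat.card_congr e1.toEquiv, card_range]
  have hi : (ψ.range.subgroupOf H1).index = 2 := by
    have h := Subgroup.card_mul_index (ψ.range.subgroupOf H1)
    rw [hc, card_H1] at h
    omega
  refine ⟨ψ.range.subgroupOf H1, Subgroup.normal_of_index_eq_two hi, hi, ?_⟩
  exact ⟨e1.trans ((MonoidHom.ofInjective ψ_inj).symm.trans Sp4.equivSp)⟩

end Cfsg.Agent.Lib.Helper38.HeSp4
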