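import Mathlib
import Cfsg.Agent.Lib.Helper6.PSLCard
import Cfsg.Agent.Lib.Helper38.CosetWP

/-!
The group `L₃(7):2`, presented on six involutions `a, …, f` by the Coxeter relations of the path
with labels `3, 3, 8, 3, 3` and the relation `a f = (c d)⁴`, acts on the set `PSL₃(7)` by the
twisted translations `m ↦ A * τ m`, where `τ` is the inverse transpose automorphism and `A` a
symmetric matrix.  The elements acting by left translations form a subgroup of index 2, which is
isomorphic to `PSL₃(7)`.
-/

set_option autoImplicit false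
set_option maxRecDepth 100000
set_option maxHeartbeats 0

namespace Cfsg.Agent.Lib.Helper38.L37

open Cfsg.Agent.Lib.Helper38

/-- the special linear group -/
abbrev S : Type := Matrix.SpecialLinearGroup (Fin 3) (ZMod 7)

/-- the projective special linear group -/
abbrev M : Type := Matrix.ProjectiveSpecialLinearGroup (Fin 3) (ZMod 7)

/-! ### The inverse transpose automorphism -/

/-- the inverse transpose -/
def τS : S →* S where
  toFun A := ⟨(A⁻¹ : S).1.transpose, by rw [Matrix.det_transpose]; exact (A⁻¹ : S).2⟩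
  map_one' := by
    apply Subtype.ext
    show ((1 : S)⁻¹ : S).1.transpose = (1 : S).1
    rw [inv_one]
    exact Matrix.transpose_one
  map_mul' A B := by
    apply Subtype.ext
    show ((A * B)⁻¹ : S).1.transpose = (A⁻¹ : S).1.transpose * (B⁻¹ : S).1.transpose
    rw [mul_inv_rev, Matrix.SpecialLinearGroup.coe_mul, Matrix.transpose_mul]

theorem τS_val (A : S) : (τS A).1 = (A⁻¹ : S).1.transpose := rfl

theorem τS_τS (A : S) : τS (τS A) = A := by
  apply Subtype.ext
  rw [τS_val, ← map_inv, τS_val, inv_inv, Matrix.transpose_transpose]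

theorem τS_center : Subgroup.center S ≤ (Subgroup.center S).comap τS := by
  intro z hz
  rw [Subgroup.mem_comap, Subgroup.mem_center_iff]
  intro x
  have h := Subgroup.mem_center_iff.mp hz (τS x)
  have h2 := congrArg τS h
  rw [map_mul, map_mul, τS_τS] at h2
  exact h2

/-- the inverse transpose automorphism of the projective group -/
def τ : M →* M := QuotientGroup.map _ _ τS τS_center

theorem τ_mk (x : S) : τ (QuotientGroup.mk x) = QuotientGroup.mk (τS x) := rfl

theorem τ_τ (m : M) : τ (τ m) = m := by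
  induction m using QuotientGroup.induction_on with
  | H x => rw [τ_mk, τ_mk, τS_τS]

theorem τ_iter (n : ℕ) (m : M) : (τ^[n]) m = if n % 2 = 0 then m else τ m := by
  induction n with
  | zero => rfl
  | succ n ih =>
    rw [Function.iterate_succ_apply', ih]
    rcases Nat.mod_two_eq_zero_or_one n with h | h
    · rw [if_pos h, if_neg (by omega)]
    · rw [if_neg (by omega), if_pos (by omega), τ_τ]

/-! ### Twisted translations -/

/-- the twisted translation `m ↦ x * τ m` -/
def tw (x : M) : Equiv.Perm M where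
  toFun m := x * τ m
  invFun m := τ (x⁻¹ * m)
  left_inv m := by
    show τ (x⁻¹ * (x * τ m)) = m
    rw [inv_mul_cancel_left, τ_τ]
  right_inv m := by
    show x * τ (τ (x⁻¹ * m)) = m
    rw [τ_τ, mul_inv_cancel_left]

theorem tw_apply (x m : M) : tw x m = x * τ m := rfl

/-- the left translations -/
def Lt : Subgroup (Equiv.Perm M) where
  carrier := {σ | ∀ m, σ m = σ 1 * m}
  mul_mem' := by
    intro a b ha hb m
    show a (b m) = a (b 1) * m
    rw [hb m, ha (b 1 * m), ha (b 1), mul_assoc]
  one_mem' := by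
    intro m
    show m = 1 * m
    rw [one_mul]
  inv_mem' := by
    intro a ha m
    show a.symm m = a.symm 1 * m
    apply a.injective
    rw [Equiv.apply_symm_apply, ha (a.symm 1 * m), ← mul_assoc, ← ha (a.symm 1),
      Equiv.apply_symm_apply, one_mul]

theorem mem_Lt {σ : Equiv.Perm M} : σ ∈ Lt ↔ ∀ m, σ m = σ 1 * m := Iff.rfl

theorem tw_tw_mem (x y : M) : tw x * tw y ∈ Lt := by
  intro m
  show x * τ (y * τ m) = x * τ (y * τ 1) * m
  rw [map_mul τ, map_mul τ, map_one τ, map_one τ, mul_one, τ_τ, mul_assoc]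

theorem tw_conj_mem (x : M) (σ : Equiv.Perm M) (hσ : σ ∈ Lt) : tw x * σ * tw x ∈ Lt := by
  intro m
  show x * τ (σ (x * τ m)) = x * τ (σ (x * τ 1)) * m
  rw [hσ (x * τ m), hσ (x * τ 1), map_one τ, mul_one, map_mul τ, map_mul τ, map_mul τ, τ_τ]
  simp only [mul_assoc]

theorem tw_not_mem (x m0 : M) (h0 : τ m0 ≠ m0) : tw x ∉ Lt := by
  intro h
  apply h0
  have h1 := h m0
  rw [tw_apply, tw_apply, map_one, mul_one] at h1
  exact mul_left_cancel h1

/-! ### Matrices with codes -/

/-- the entry of the matrix with the code `c` at the place `(m, n)` -/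
def en (c m n : ℕ) : ZMod 7 := ((c / 7 ^ (3 * m + n) % 7 : ℕ) : ZMod 7)

/-- the matrix with the code `c` -/
def mk (c : ℕ) : Matrix (Fin 3) (Fin 3) (ZMod 7) := Matrix.of fun i j => en c i.val j.val

/-- the code of the identity matrix -/
def idc : ℕ := 5767203

theorem mk_idc : mk idc = 1 := by decide +kernel

theorem mk_apply (c : ℕ) (i j : Fin 3) : mk c i j = en c i.val j.val := rfl

theorem sum_enc (f : ℕ → ZMod 7) : ∑ k : Fin 3, f k.val = f 0 + f 1 + f 2 := by
  rw [Fin.sum_univ_three]
  rfl

/-- the check that the matrix with the code `c` is the product of those with the codes `a`, `b` -/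
def mulB (a b c : ℕ) : Bool :=
  (List.range 3).all fun m => (List.range 3).all fun n =>
    decide (en a m 0 * en b 0 n + en a m 1 * en b 1 n + en a m 2 * en b 2 n = en c m n)

theorem mul_spec (a b c : ℕ) (h : mulB a b c = true) : mk a * mk b = mk c := by
  ext i j
  rw [Matrix.mul_apply]
  simp only [mk_apply]
  rw [sum_enc (fun k => en a i.val k * en b k j.val)]
  have h1 := List.all_eq_true.mp (List.all_eq_true.mp h i.val (List.mem_range.mpr i.2))
    j.val (List.mem_range.mpr j.2)
  exact of_decide_eq_true h1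

/-- the codes of the symmetric matrices of the generators `a, …, f` (letters `2, …, 7`) -/
def cdsA : List ℕ := [5767203, 5767203, 5767203, 23064007, 10205049, 360297, 34589156, 132104]

/-- the codes of their inverses -/
def cdsB : List ℕ := [5767203, 5767203, 5767203, 11539207, 28228960, 600495, 34589156, 132104]

/-- the code of the matrix of a generator -/
def cdA (s : ℕ) : ℕ := cdsA.getD s idc

/-- the code of the inverse of the matrix of a generator -/
def cdB (s : ℕ) : ℕ := cdsB.getD s idc

theorem cdA_ge (s : ℕ) (hs : 8 ≤ s) : cdA s = idc := by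
  unfold cdA
  exact List.getD_eq_default _ _ (by simpa [cdsA] using hs)

theorem cdB_ge (s : ℕ) (hs : 8 ≤ s) : cdB s = idc := by
  unfold cdB
  exact List.getD_eq_default _ _ (by simpa [cdsB] using hs)

theorem det_idc : (mk idc).det = 1 := by
  rw [mk_idc, Matrix.det_one]

theorem A_det (s : ℕ) : (mk (cdA s)).det = 1 := by
  by_cases hs : s < 8
  · interval_cases s <;> (rw [Matrix.det_fin_three]; decide +kernel)
  · rw [cdA_ge s (by omega)]
    exact det_idc

theorem B_det (s : ℕ) : (mk (cdB s)).det = 1 := by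
  by_cases hs : s < 8
  · interval_cases s <;> (rw [Matrix.det_fin_three]; decide +kernel)
  · rw [cdB_ge s (by omega)]
    exact det_idc

theorem AB_one (s : ℕ) : mk (cdA s) * mk (cdB s) = 1 := by
  rw [← mk_idc]
  by_cases hs : s < 8
  · interval_cases s <;> exact mul_spec _ _ _ (by decide +kernel)
  · rw [cdA_ge s (by omega), cdB_ge s (by omega)]
    exact mul_spec _ _ _ (by decide +kernel)

theorem A_symm (s : ℕ) : (mk (cdA s)).transpose = mk (cdA s) := by
  by_cases hs : s < 8
  · interval_cases s <;> decide +kernel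
  · rw [cdA_ge s (by omega)]
    decide +kernel

theorem B_symm (s : ℕ) : (mk (cdB s)).transpose = mk (cdB s) := by
  by_cases hs : s < 8
  · interval_cases s <;> decide +kernel
  · rw [cdB_ge s (by omega)]
    decide +kernel

/-- the matrices of the generators in the special linear group -/
def a (s : ℕ) : S := ⟨mk (cdA s), A_det s⟩

/-- their inverses -/
def b (s : ℕ) : S := ⟨mk (cdB s), B_det s⟩

theorem ab_one (s : ℕ) : a s * b s = 1 := Subtype.ext (AB_one s)

theorem a_inv (s : ℕ) : (a s)⁻¹ = b s := inv_eq_of_mul_eq_one_right (ab_one s)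

theorem b_inv (s : ℕ) : (b s)⁻¹ = a s := inv_eq_of_mul_eq_one_left (ab_one s)

theorem τS_a (s : ℕ) : τS (a s) = b s := by
  apply Subtype.ext
  rw [τS_val, a_inv]
  exact B_symm s

theorem τS_b (s : ℕ) : τS (b s) = a s := by
  apply Subtype.ext
  rw [τS_val, b_inv]
  exact A_symm s

/-- the alternating product of the matrices of the letters of a word and of their inverses -/
def alt : List ℕ → Bool → S
  | [], _ => 1
  | s :: w, p => (if p then b s else a s) * alt w (!p)

theorem alt_cons (s : ℕ) (w : List ℕ) (p : Bool) :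
    alt (s :: w) p = (if p then b s else a s) * alt w (!p) := rfl

theorem τS_alt : ∀ (w : List ℕ) (p : Bool), τS (alt w p) = alt w (!p)
  | [], _ => map_one τS
  | s :: w, p => by
    rw [alt_cons, alt_cons, map_mul, τS_alt w (!p)]
    cases p
    · rw [if_neg Bool.false_ne_true, τS_a]
      rfl
    · rw [if_pos rfl, τS_b]
      rfl

/-- the check of a chain of partial products of an alternating product -/
def chainB : List ℕ → Bool → List ℕ → Bool
  | [], _, [c] => c == idc
  | s :: w, p, c :: c' :: cs => mulB (if p then cdB s else cdA s) c' c && chainB w (!p) (c' :: cs)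
  | _, _, _ => false

theorem chain_spec : ∀ (w : List ℕ) (p : Bool) (cs : List ℕ), chainB w p cs = true →
    ∀ c rest, cs = c :: rest → (alt w p).1 = mk c
  | [], p, cs, h => by
    intro c rest e
    match cs, h, e with
    | [c'], h, e =>
      have hc : c' = idc := by simpa [chainB] using h
      have e' : c = c' := (List.cons.inj e).1.symm
      rw [e', hc, mk_idc]
      rfl
  | s :: w, p, cs, h => by
    intro c rest e
    match cs, h, e with
    | c0 :: c' :: cs', h, e =>
      have h' : mulB (if p then cdB s else cdA s) c' c0 = true ∧ chainB w (!p) (c' :: cs') = true := by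
        simpa [chainB] using h
      have e' : c = c0 := (List.cons.inj e).1.symm
      rw [alt_cons, Matrix.SpecialLinearGroup.coe_mul, chain_spec w (!p) (c' :: cs') h'.2 c' cs' rfl,
        e', ← mul_spec _ _ _ h'.1]
      cases p <;> rfl

/-- the codes of the scalar matrices of determinant 1 -/
def scs : List ℕ := [5767203, 11534406, 23068812]

theorem mk_scalar : ∀ c ∈ scs, ∃ x : ZMod 7, mk c = x • (1 : Matrix (Fin 3) (Fin 3) (ZMod 7)) := by
  intro c hc
  simp only [scs, List.mem_cons, List.not_mem_nil, or_false] at hc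
  rcases hc with rfl | rfl | rfl
  · exact ⟨1, by decide +kernel⟩
  · exact ⟨2, by decide +kernel⟩
  · exact ⟨4, by decide +kernel⟩

/-- the check of all relators: the alternating product is a scalar matrix -/
def relsB : List (List ℕ) → List (List ℕ) → Bool
  | [], [] => true
  | w :: ws, c :: cs => (chainB w false c && scs.contains (c.headD 0)) && relsB ws cs
  | _, _ => false

theorem rels_spec : ∀ (ws cs : List (List ℕ)), relsB ws cs = true →
    ∀ w ∈ ws, ∃ x : ZMod 7, (alt w false).1 = x • (1 : Matrix (Fin 3) (Fin 3) (ZMod 7))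
  | [], _, _ => by intro w hw; simp at hw
  | w0 :: ws, cs, h => by
    match cs, h with
    | c :: cs', h =>
      have h' : (chainB w0 false c = true ∧ scs.contains (c.headD 0) = true) ∧
          relsB ws cs' = true := by
        simpa [relsB] using h
      intro w hw
      rcases List.mem_cons.mp hw with rfl | hw
      · obtain ⟨c0, rest, rfl⟩ : ∃ c0 rest, c = c0 :: rest := by
          cases c with
          | nil => simp [chainB] at h'
          | cons a l => exact ⟨a, l, rfl⟩
        have hc : c0 ∈ scs := by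
          have := h'.1.2
          simpa using this
        rw [chain_spec w false (c0 :: rest) h'.1.1 c0 rest rfl]
        exact mk_scalar c0 hc
      · exact rels_spec ws cs' h'.2 w hw

/-- the relators on `a, …, f` -/
def WA : List (List ℕ) := [
  [2, 3, 2, 3, 2, 3],
  [2, 4, 2, 4],
  [2, 5, 2, 5],
  [2, 6, 2, 6],
  [2, 7, 2, 7],
  [3, 4, 3, 4, 3, 4],
  [3, 5, 3, 5],
  [3, 6, 3, 6],
  [3, 7, 3, 7],
  [4, 5, 4, 5, 4, 5, 4, 5, 4, 5, 4, 5, 4, 5, 4, 5],
  [4, 6, 4, 6],
  [4, 7, 4, 7],
  [5, 6, 5, 6, 5, 6],
  [5, 7, 5, 7],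
  [6, 7, 6, 7, 6, 7],
  [2, 7, 5, 4, 5, 4, 5, 4, 5, 4]]

/-- the relators, with the two letters `0`, `1` which are not used -/
def WH : List (List ℕ) := WA ++ [[0], [1]]

/-- the chains of partial products of the relators -/
def CS : List (List ℕ) := [
  [5767203, 5767203, 23064007, 23064007, 11539207, 11539207, 5767203],
  [23068812, 23068812, 28228960, 28228960, 5767203],
  [23068812, 23068812, 600495, 600495, 5767203],
  [5767203, 5767203, 34589156, 34589156, 5767203],
  [5767203, 5767203, 132104, 132104, 5767203],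
  [5767203, 11539207, 16767073, 27736899, 14558009, 28228960, 5767203],
  [11534406, 23061607, 713342, 600495, 5767203],
  [11534406, 23061607, 17295096, 34589156, 5767203],
  [23068812, 5769607, 482650, 132104, 5767203],
  [5767203, 28228960, 20433815, 38657450, 25261842, 11285247, 31720820, 28828812, 132104, 7085247, 32527892, 37817450, 27683058, 24028960, 21240887, 600495, 5767203],
  [11534406, 10205049, 36863150, 34589156, 5767203],
  [11534406, 10205049, 13344158, 132104, 5767203],
  [5767203, 600495, 319368, 3361403, 2471854, 34589156, 5767203],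
  [11534406, 360297, 17304010, 132104, 5767203],
  [5767203, 34589156, 825895, 5042106, 722743, 132104, 5767203],
  [5767203, 5767203, 132104, 28828812, 31720820, 11285247, 25261842, 38657450, 20433815, 28228960, 5767203]]

theorem rels_ok : relsB WA CS = true := by decide +kernel

/-- an element whose matrix is scalar is central -/
theorem central_of_scalar (x : S) (c : ZMod 7)
    (h : x.1 = c • (1 : Matrix (Fin 3) (Fin 3) (ZMod 7))) : x ∈ Subgroup.center S := by
  rw [Subgroup.mem_center_iff]
  intro y
  apply Subtype.ext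
  rw [Matrix.SpecialLinearGroup.coe_mul, Matrix.SpecialLinearGroup.coe_mul, h, Matrix.smul_mul,
    Matrix.mul_smul, one_mul, mul_one]

/-- the class of a matrix of the special linear group -/
def pm (x : S) : M := QuotientGroup.mk x

theorem pm_mul (x y : S) : pm (x * y) = pm x * pm y := rfl

theorem pm_one : pm 1 = 1 := rfl

theorem τ_pm (x : S) : τ (pm x) = pm (τS x) := rfl

theorem pm_eq_one {x : S} (h : x ∈ Subgroup.center S) : pm x = 1 :=
  (QuotientGroup.eq_one_iff x).mpr h

/-- two matrices with the same class: the quotient is central -/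
theorem pm_eq {x y : S} (h : pm x = pm y) : x⁻¹ * y ∈ Subgroup.center S :=
  QuotientGroup.eq.mp h

theorem z1_not_central : a 3 * b 2 * (a 3 * b 2) ∉ Subgroup.center S := by
  intro h
  have h2 := Subgroup.mem_center_iff.mp h (a 4)
  have h3 := congrArg Subtype.val h2
  revert h3
  decide +kernel

theorem z2_not_central : a 3 * a 3 ∉ Subgroup.center S := by
  intro h
  have h2 := Subgroup.mem_center_iff.mp h (a 4)
  have h3 := congrArg Subtype.val h2
  revert h3
  decide +kernel

/-- an element moved by the automorphism -/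
theorem τ_moves : τ (pm (a 3)) ≠ pm (a 3) := by
  intro h
  rw [τ_pm, τS_a] at h
  apply z2_not_central
  have h2 := pm_eq h
  rwa [b_inv] at h2

theorem comm_ne : pm (a 2 * b 3) ≠ pm (a 3 * b 2) := by
  intro h
  apply z1_not_central
  have h2 := pm_eq h
  rwa [mul_inv_rev, b_inv, a_inv] at h2

/-! ### The action of the generators -/

/-- the permutations of the generators: twisted translations for the letters `2, …, 7` -/
def π (s : ℕ) : Equiv.Perm M := if 2 ≤ s ∧ s < 8 then tw (pm (a s)) else 1

theorem π_act (s : ℕ) (h : 2 ≤ s ∧ s < 8) : π s = tw (pm (a s)) := if_pos h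

theorem π_ge (s : ℕ) (hs : 8 ≤ s) : π s = 1 := if_neg (by omega)

theorem tw_sq (s : ℕ) : tw (pm (a s)) * tw (pm (a s)) = 1 := by
  ext m
  show pm (a s) * τ (pm (a s) * τ m) = m
  rw [map_mul, τ_τ, τ_pm, τS_a, ← mul_assoc, ← pm_mul, ab_one, pm_one, one_mul]

theorem π_sq (s : ℕ) : π s * π s = 1 := by
  by_cases h : 2 ≤ s ∧ s < 8
  · rw [π_act s h]
    exact tw_sq s
  · rw [show π s = 1 from if_neg h, one_mul]

theorem prod_π : ∀ (w : List ℕ), (∀ s ∈ w, 2 ≤ s ∧ s < 8) → ∀ m : M,
    (w.map π).prod m = pm (alt w false) * (τ^[w.length]) m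
  | [], _, m => by
    show m = pm 1 * m
    rw [pm_one, one_mul]
  | s :: w, h, m => by
    have hs := h s List.mem_cons_self
    have ih := prod_π w (fun t ht => h t (List.mem_cons_of_mem _ ht)) m
    rw [List.map_cons, List.prod_cons, Equiv.Perm.mul_apply, ih, π_act s hs, tw_apply, map_mul,
      τ_pm, τS_alt, List.length_cons, Function.iterate_succ_apply', alt_cons,
      if_neg Bool.false_ne_true, pm_mul, mul_assoc]

theorem π_relA : ∀ w ∈ WA, (w.map π).prod = 1 := by
  intro w hw
  have hact : ∀ s ∈ w, 2 ≤ s ∧ s < 8 := (by decide : ∀ w ∈ WA, ∀ s ∈ w, 2 ≤ s ∧ s < 8) w hw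
  have hev : w.length % 2 = 0 := (by decide : ∀ w ∈ WA, w.length % 2 = 0) w hw
  obtain ⟨x, hx⟩ := rels_spec WA CS rels_ok w hw
  have hc : alt w false ∈ Subgroup.center S := central_of_scalar _ x hx
  ext m
  rw [prod_π w hact m, τ_iter, if_pos hev, pm_eq_one hc, one_mul]
  rfl

theorem π_rel : ∀ w ∈ WH, (w.map π).prod = 1 := by
  intro w hw
  rcases List.mem_append.mp hw with h | h
  · exact π_relA w h
  · simp only [List.mem_cons, List.not_mem_nil, or_false] at h
    rcases h with rfl | rfl
    · show π 0 * 1 = 1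
      rw [show π 0 = 1 from if_neg (by omega), one_mul]
    · show π 1 * 1 = 1
      rw [show π 1 = 1 from if_neg (by omega), one_mul]

/-- the homomorphism from a group presented by some of the relators -/
theorem hom_of (W : List (List ℕ)) (hW : ∀ w ∈ W, w ∈ WH) :
    ∃ Φ : WP 8 W →* Equiv.Perm M, ∀ s, Φ (WP.gen 8 W s) = π s :=
  ⟨WP.lift 8 W π π_sq π_ge (fun w hw => π_rel w (hW w hw)),
    fun s => WP.lift_gen 8 W π π_sq π_ge (fun w hw => π_rel w (hW w hw)) s⟩

/-! ### A subgroup and its coset by an involution normalising it -/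

section Join

variable {K : Type*} [Group K]

/-- the union of a subgroup with its coset by an involution normalising it -/
def joinInv (N : Subgroup K) (x : K) (hx : x * x = 1) (hN : ∀ n ∈ N, x * n * x ∈ N) :
    Subgroup K where
  carrier := {g | g ∈ N ∨ g * x ∈ N}
  mul_mem' := by
    rintro a b (ha | ha) (hb | hb)
    · exact Or.inl (mul_mem ha hb)
    · right
      show a * b * x ∈ N
      rw [mul_assoc]
      exact mul_mem ha hb
    · right
      show a * b * x ∈ N
      have e : a * b * x = (a * x) * (x * b * x) := by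
        calc a * b * x = a * (x * x) * b * x := by rw [hx, mul_one]
          _ = (a * x) * (x * b * x) := by group
      rw [e]
      exact mul_mem ha (hN b hb)
    · left
      show a * b ∈ N
      have e : a * b = (a * x) * (x * (b * x) * x) := by
        calc a * b = a * (x * x) * b * (x * x) := by rw [hx, mul_one, mul_one]
          _ = (a * x) * (x * (b * x) * x) := by group
      rw [e]
      exact mul_mem ha (hN _ hb)
  one_mem' := Or.inl (one_mem N)
  inv_mem' := by
    rintro a (ha | ha)
    · exact Or.inl (inv_mem ha)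
    · right
      show a⁻¹ * x ∈ N
      have hxi : x⁻¹ = x := inv_eq_of_mul_eq_one_left hx
      have e : a⁻¹ * x = x * (a * x)⁻¹ * x := by
        rw [mul_inv_rev, hxi]
        calc a⁻¹ * x = (x * x) * a⁻¹ * x := by rw [hx, one_mul]
          _ = x * (x * a⁻¹) * x := by group
      rw [e]
      exact hN _ (inv_mem ha)

theorem card_joinInv_le [Finite K] (N : Subgroup K) (x : K) (hx : x * x = 1)
    (hN : ∀ n ∈ N, x * n * x ∈ N) : Nat.card (joinInv N x hx hN) ≤ 2 * Nat.card N := by
  have h1 : ((joinInv N x hx hN : Subgroup K) : Set K) ⊆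
      (N : Set K) ∪ (fun n => n * x) '' (N : Set K) := by
    rintro g (hg | hg)
    · exact Or.inl hg
    · right
      refine ⟨g * x, hg, ?_⟩
      show g * x * x = g
      rw [mul_assoc, hx, mul_one]
  have e1 : Nat.card (joinInv N x hx hN) = ((joinInv N x hx hN : Subgroup K) : Set K).ncard :=
    Nat.card_coe_set_eq _
  have e2 : Nat.card N = (N : Set K).ncard := Nat.card_coe_set_eq _
  rw [e1, e2]
  calc ((joinInv N x hx hN : Subgroup K) : Set K).ncard
      ≤ ((N : Set K) ∪ (fun n => n * x) '' (N : Set K)).ncard :=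
        Set.ncard_le_ncard h1 (Set.toFinite _)
    _ ≤ (N : Set K).ncard + ((fun n => n * x) '' (N : Set K)).ncard := Set.ncard_union_le _ _
    _ ≤ (N : Set K).ncard + (N : Set K).ncard :=
        Nat.add_le_add_left (Set.ncard_image_le (Set.toFinite _)) _
    _ = 2 * (N : Set K).ncard := by ring

end Join

/-! ### The subgroup of index 2 -/

theorem card_M : Nat.card M = 1876896 := by
  have : Fact (Nat.Prime 7) := ⟨by norm_num⟩
  have h := Cfsg.Agent.Lib.Helper6.card_psl (F := ZMod 7) (q := 7) (ZMod.card 7) 3 (by norm_num)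
  rw [Fin.prod_univ_three] at h
  generalize Nat.card (Matrix.ProjectiveSpecialLinearGroup (Fin 3) (ZMod 7)) = c at h ⊢
  norm_num at h
  omega

section Abstract

variable {P : Type} [Group P] (δ : ℕ → P) (Φ : P →* Equiv.Perm M)

/-- the elements acting by left translations -/
def NN : Subgroup P := Lt.comap Φ

theorem mem_NN {p : P} : p ∈ NN Φ ↔ Φ p ∈ Lt := Iff.rfl

/-- the homomorphism of the subgroup to the projective special linear group -/
def ψN : ↥(NN Φ) →* M where
  toFun n := Φ n.1 1
  map_one' := by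
    show Φ (1 : P) 1 = 1
    rw [map_one Φ]
    rfl
  map_mul' n n' := by
    show Φ (n.1 * n'.1) 1 = Φ n.1 1 * Φ n'.1 1
    have hn : ∀ m, Φ n.1 m = Φ n.1 1 * m := n.2
    rw [map_mul Φ, Equiv.Perm.mul_apply, hn (Φ n'.1 1)]

variable (hΦ : ∀ s, Φ (δ s) = π s)
  (hgen : Subgroup.closure (δ '' {s | s < 8}) = ⊤)
  (hδ : ∀ s, δ s * δ s = 1)
  (hcard : Nat.card P = 3753792)
  (hnorm : ∀ K : Subgroup P, K.Normal → K ≠ ⊥ → ∀ a b : P, a * b * a⁻¹ * b⁻¹ ∈ K)

include hΦ in
theorem conj_NN : ∀ n ∈ NN Φ, δ 2 * n * δ 2 ∈ NN Φ := by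
  intro n hn
  rw [mem_NN, map_mul Φ, map_mul Φ, hΦ 2, π_act 2 (by omega)]
  exact tw_conj_mem _ _ hn

include hΦ in
theorem x_not_mem : δ 2 ∉ NN Φ := by
  rw [mem_NN, hΦ 2, π_act 2 (by omega)]
  exact tw_not_mem _ _ τ_moves

include hΦ hgen hδ in
theorem join_top : joinInv (NN Φ) (δ 2) (hδ 2) (conj_NN δ Φ hΦ) = ⊤ := by
  rw [eq_top_iff, ← hgen, Subgroup.closure_le]
  rintro _ ⟨s, hs, rfl⟩
  by_cases h : 2 ≤ s ∧ s < 8
  · right
    show δ s * δ 2 ∈ NN Φ
    rw [mem_NN, map_mul Φ, hΦ s, hΦ 2, π_act s h, π_act 2 (by omega)]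
    exact tw_tw_mem _ _
  · left
    show δ s ∈ NN Φ
    rw [mem_NN, hΦ s, show π s = 1 from if_neg h]
    exact one_mem _

include hΦ hgen hδ hcard in
theorem index_NN : (NN Φ).index = 2 := by
  have hfin : Finite P := Nat.finite_of_card_ne_zero (by rw [hcard]; norm_num)
  have h1 := card_joinInv_le (NN Φ) (δ 2) (hδ 2) (conj_NN δ Φ hΦ)
  rw [join_top δ Φ hΦ hgen hδ, Subgroup.card_top] at h1
  have h2 := Subgroup.card_mul_index (NN Φ)
  have h3 : (NN Φ).index ≠ 1 := by
    intro h
    rw [Subgroup.index_eq_one] at h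
    apply x_not_mem δ Φ hΦ
    rw [h]
    exact Subgroup.mem_top _
  have h4 : 0 < Nat.card (NN Φ) := Nat.card_pos
  have h5 : (NN Φ).index ≠ 0 := Subgroup.index_ne_zero_of_finite
  have h6 : (NN Φ).index ≤ 2 := by
    by_contra hlt
    have h7 : 3 ≤ (NN Φ).index := by omega
    have h8 : Nat.card (NN Φ) * 3 ≤ Nat.card (NN Φ) * (NN Φ).index := Nat.mul_le_mul_left _ h7
    omega
  omega

include hΦ hnorm in
theorem ker_Φ : Φ.ker = ⊥ := by
  by_contra hne
  have h := hnorm Φ.ker (MonoidHom.normal_ker Φ) hne (δ 2) (δ 3)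
  rw [MonoidHom.mem_ker, map_mul Φ, map_mul Φ, map_mul Φ, map_inv Φ, map_inv Φ, hΦ 2, hΦ 3,
    π_act 2 (by omega), π_act 3 (by omega)] at h
  have h2 : tw (pm (a 2)) * tw (pm (a 3)) = tw (pm (a 3)) * tw (pm (a 2)) := by
    have h3 := mul_eq_one_iff_eq_inv.mp h
    rw [inv_inv] at h3
    have h4 := mul_inv_eq_iff_eq_mul.mp h3
    exact h4
  have h5 : (tw (pm (a 2)) * tw (pm (a 3))) 1 = (tw (pm (a 3)) * tw (pm (a 2))) 1 := by rw [h2]
  rw [Equiv.Perm.mul_apply, Equiv.Perm.mul_apply] at h5
  simp only [tw_apply] at h5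
  rw [map_one τ, mul_one, mul_one, τ_pm, τ_pm, τS_a, τS_a, ← pm_mul, ← pm_mul] at h5
  exact comm_ne h5

include hΦ hnorm in
theorem ψN_inj : Function.Injective (ψN Φ) := by
  rw [injective_iff_map_eq_one]
  intro n hn
  have h1 : Φ n.1 = 1 := by
    ext m
    have h2 : Φ n.1 1 = 1 := hn
    have hn2 : ∀ m, Φ n.1 m = Φ n.1 1 * m := n.2
    rw [hn2 m, h2, one_mul]
    rfl
  have h3 : n.1 ∈ Φ.ker := h1
  rw [ker_Φ δ Φ hΦ hnorm, Subgroup.mem_bot] at h3
  exact Subtype.ext h3

include hΦ hgen hδ hcard hnorm in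
/-- the subgroup of index 2 is isomorphic to the projective special linear group -/
theorem abstract_main : (NN Φ).index = 2 ∧ Nonempty (↥(NN Φ) ≃* M) := by
  have hi := index_NN δ Φ hΦ hgen hδ hcard
  refine ⟨hi, ?_⟩
  have hc : Nat.card (NN Φ) = 1876896 := by
    have h2 := Subgroup.card_mul_index (NN Φ)
    rw [hi, hcard] at h2
    omega
  have hfin : Finite P := Nat.finite_of_card_ne_zero (by rw [hcard]; norm_num)
  have hbij : Function.Bijective (ψN Φ) :=
    (ψN_inj δ Φ hΦ hnorm).bijective_of_nat_card_le (by rw [hc, card_M])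
  exact ⟨MulEquiv.ofBijective (ψN Φ) hbij⟩

end Abstract

/-! ### Transfer along an injective homomorphism -/

theorem transfer {P G : Type*} [Group P] [Group G] [Finite P] (ψ : P →* G)
    (hψ : Function.Injective ψ) (H : Subgroup G) (hr : ψ.range = H) (N : Subgroup P)
    (hN : N.index = 2) :
    ∃ N' : Subgroup ↥H, N'.Normal ∧ N'.index = 2 ∧ Nonempty (↥N' ≃* ↥N) := by
  subst hr
  have hle : N.map ψ ≤ ψ.range := by
    rintro _ ⟨n, -, rfl⟩
    exact ⟨n, rfl⟩
  have e1 : (N.map ψ).subgroupOf ψ.range ≃* N.map ψ := Subgroup.subgroupOfEquivOfLe hle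
  have e2 : N ≃* N.map ψ := N.equivMapOfInjective ψ hψ
  have e3 : P ≃* ψ.range := MonoidHom.ofInjective hψ
  have hfinH : Finite ↥ψ.range := Finite.of_equiv P e3.toEquiv
  have c1 : Nat.card ((N.map ψ).subgroupOf ψ.range) = Nat.card N :=
    (Nat.card_congr e1.toEquiv).trans (Nat.card_congr e2.toEquiv).symm
  have c2 : Nat.card ↥ψ.range = Nat.card P := (Nat.card_congr e3.toEquiv).symm
  have hi : ((N.map ψ).subgroupOf ψ.range).index = 2 := by
    have h1 := Subgroup.card_mul_index ((N.map ψ).subgroupOf ψ.range)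
    have h2 := Subgroup.card_mul_index N
    rw [c1, c2] at h1
    rw [hN] at h2
    have h4 : 0 < Nat.card N := Nat.card_pos
    have h5 : Nat.card N * ((N.map ψ).subgroupOf ψ.range).index = Nat.card N * 2 := by rw [h1, h2]
    exact Nat.eq_of_mul_eq_mul_left h4 h5
  exact ⟨(N.map ψ).subgroupOf ψ.range, Subgroup.normal_of_index_eq_two hi, hi, ⟨e1.trans e2.symm⟩⟩

end Cfsg.Agent.Lib.Helper38.L37
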