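import Cfsg.Agent.Lib.Helper38.O7BData

set_option maxRecDepth 100000
set_option maxHeartbeats 0

namespace Cfsg.Agent.Lib.Helper38.O7B

theorem chkO_0 : allFrom 0 250 cert.chkO = true := by decide +kernel
theorem chkO_1 : allFrom 250 101 cert.chkO = true := by decide +kernel

end Cfsg.Agent.Lib.Helper38.O7B
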