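import Cfsg.Agent.S1696
import Cfsg.Agent.Lib.Helper38.CosetIso
import Cfsg.Agent.Lib.Helper38.O7BV
import Cfsg.Agent.Lib.Helper38.O7BN
import Cfsg.Agent.Lib.Helper38.O7BO
import Cfsg.Agent.Lib.Helper38.O7BT

/-!
The group `WP 9 W1` presented by the relators of the Fischer group `Fi22` on the generators
`b, …, i` (a presentation of the subgroup they generate): its order, a base of its action on
351 points, and its simplicity.
-/

set_option autoImplicit false

namespace Cfsg.Agent.Lib.Helper38.O7S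

open Cfsg.Agent.Lib.Helper38 Cfsg.Agent.S1696

set_option maxRecDepth 100000
set_option maxHeartbeats 0

/-- the generators -/
noncomputable abbrev δ : ℕ → WP 9 W1 := WP.gen 9 W1

theorem B_chkG : O7B.cert.chkG = true := by decide +kernel

theorem B_words : (List.range O7B.cert.nrel).map O7B.cert.wordL = W1 := by decide +kernel

theorem B_hP : Cert.Pres O7B.cert δ (O7B.cert.subgp δ) :=
  WP.pres O7B.cert W1 B_words O7B.chkN_all

theorem B_hC : Cert.Checks O7B.cert := ⟨O7B.chkV_all, O7B.chkN_all, B_chkG⟩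

theorem order_and_base : ∃ φ : WP 9 W1 →* Equiv.Perm ℕ, (∀ s < 9, φ (δ s) = O7B.cert.σ s) ∧
    Nat.card (WP 9 W1) = 4585351680 ∧
    ∀ x : WP 9 W1, (∀ p ∈ [0, 1, 3, 5, 6, 10], φ x p = p) → x = 1 := by
  obtain ⟨φ, hφ⟩ := B_hP.hφ
  have := fin1.1
  have r0 : Reach φ [] 0 351 := reach_top B_hP B_hC φ hφ
  have r1 : Reach φ [0] 1 224 := by
    have h := O7B.T1.reach B_hC φ hφ [0] O7B.T1_fix O7B.T1_pc0 O7B.chkT1_all
    rw [O7B.T1_tot] at h
    exact h
  have r2 : Reach φ [1, 0] 3 81 := by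
    have h := O7B.T2.reach B_hC φ hφ [1, 0] O7B.T2_fix O7B.T2_pc0 O7B.chkT2_all
    rw [O7B.T2_tot] at h
    exact h
  have r3 : Reach φ [3, 1, 0] 5 30 := by
    have h := O7B.T3.reach B_hC φ hφ [3, 1, 0] O7B.T3_fix O7B.T3_pc0 O7B.chkT3_all
    rw [O7B.T3_tot] at h
    exact h
  have r4 : Reach φ [5, 3, 1, 0] 6 12 := by
    have h := O7B.T4.reach B_hC φ hφ [5, 3, 1, 0] O7B.T4_fix O7B.T4_pc0 O7B.chkT4_all
    rw [O7B.T4_tot] at h
    exact h
  have r5 : Reach φ [6, 5, 3, 1, 0] 10 2 := by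
    have h := O7B.T5.reach B_hC φ hφ [6, 5, 3, 1, 0] O7B.T5_fix O7B.T5_pc0 O7B.chkT5_all
    rw [O7B.T5_tot] at h
    exact h
  have hch : Chain φ [] [(0, 351), (1, 224), (3, 81), (5, 30), (6, 12), (10, 2)] :=
    ⟨r0, r1, r2, r3, r4, r5, trivial⟩
  have hub : Nat.card (WP 9 W1) ≤ ([(0, 351), (1, 224), (3, 81), (5, 30), (6, 12), (10, 2)].map Prod.snd).prod :=
    fin1.2.trans (by decide)
  have h := order_base φ _ hch hub
  exact ⟨φ, hφ, h.1.trans (by decide), h.2⟩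

theorem card_eq : Nat.card (WP 9 W1) = 4585351680 := by
  obtain ⟨φ, hφ, hcard, hbase⟩ := order_and_base
  exact hcard

theorem hδ : ∀ s, δ s * δ s = 1 := B_hP.hγ

theorem δ_zero : δ 0 = 1 := by
  have h := WP.gen_word 9 W1 (w := [0]) (by decide)
  simpa using h

/-- the word of the involution `z` -/
def zw : List ℕ := [1]

/-- the identity words of the base certificate are trivial -/
theorem ids : ∀ wid, 70 ≤ wid → wid < 70 + 15 →
    ((O7B.cert.wordL wid).map δ).prod = 1 := by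
  obtain ⟨φ, hφ, hcard, hbase⟩ := order_and_base
  exact words_one_of_base B_hC φ hφ [0, 1, 3, 5, 6, 10] hbase 70 15 (by decide +kernel)

theorem cw_2 : O7B.cert.wordL 70 = [1, 2] ++ 1 :: (([1, 2] : List ℕ).reverse ++ [2]) := by decide +kernel

theorem cw_3 : O7B.cert.wordL 71 = [2, 3, 1, 2] ++ 1 :: (([2, 3, 1, 2] : List ℕ).reverse ++ [3]) := by decide +kernel

theorem cw_4 : O7B.cert.wordL 72 = [3, 4, 2, 3, 1, 2] ++ 1 :: (([3, 4, 2, 3, 1, 2] : List ℕ).reverse ++ [4]) := by decide +kernel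

theorem cw_5 : O7B.cert.wordL 73 = [4, 5, 3, 4, 2, 3, 1, 2] ++ 1 :: (([4, 5, 3, 4, 2, 3, 1, 2] : List ℕ).reverse ++ [5]) := by decide +kernel

theorem cw_6 : O7B.cert.wordL 74 = [5, 6, 4, 5, 3, 4, 2, 3, 1, 2] ++ 1 :: (([5, 6, 4, 5, 3, 4, 2, 3, 1, 2] : List ℕ).reverse ++ [6]) := by decide +kernel

theorem cw_7 : O7B.cert.wordL 75 = [3, 7, 2, 3, 1, 2] ++ 1 :: (([3, 7, 2, 3, 1, 2] : List ℕ).reverse ++ [7]) := by decide +kernel

theorem cw_8 : O7B.cert.wordL 76 = [7, 8, 3, 7, 2, 3, 1, 2] ++ 1 :: (([7, 8, 3, 7, 2, 3, 1, 2] : List ℕ).reverse ++ [8]) := by decide +kernel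

theorem zc_40 : O7B.cert.wordL 77 = O7B.cert.wordL 40 ++ (zw ++ ((O7B.cert.wordL 40).reverse ++ zw)) := by decide +kernel

theorem zc_41 : O7B.cert.wordL 78 = O7B.cert.wordL 41 ++ (zw ++ ((O7B.cert.wordL 41).reverse ++ zw)) := by decide +kernel

theorem zc_42 : O7B.cert.wordL 79 = O7B.cert.wordL 42 ++ (zw ++ ((O7B.cert.wordL 42).reverse ++ zw)) := by decide +kernel

theorem zc_43 : O7B.cert.wordL 80 = O7B.cert.wordL 43 ++ (zw ++ ((O7B.cert.wordL 43).reverse ++ zw)) := by decide +kernel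

theorem zc_44 : O7B.cert.wordL 81 = O7B.cert.wordL 44 ++ (zw ++ ((O7B.cert.wordL 44).reverse ++ zw)) := by decide +kernel

theorem zc_45 : O7B.cert.wordL 82 = O7B.cert.wordL 45 ++ (zw ++ ((O7B.cert.wordL 45).reverse ++ zw)) := by decide +kernel

theorem zc_46 : O7B.cert.wordL 83 = O7B.cert.wordL 46 ++ (zw ++ ((O7B.cert.wordL 46).reverse ++ zw)) := by decide +kernel

theorem zc_47 : O7B.cert.wordL 84 = O7B.cert.wordL 47 ++ (zw ++ ((O7B.cert.wordL 47).reverse ++ zw)) := by decide +kernel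

theorem zc_all : ∀ wid, O7B.cert.nsub ≤ wid → wid < O7B.cert.nw →
    O7B.cert.wordL (37 + wid) = O7B.cert.wordL wid ++ (zw ++ ((O7B.cert.wordL wid).reverse ++ zw)) := by
  intro wid h1 h2
  have h1' : 40 ≤ wid := h1
  have h2' : wid < 48 := h2
  interval_cases wid
  · exact zc_40
  · exact zc_41
  · exact zc_42
  · exact zc_43
  · exact zc_44
  · exact zc_45
  · exact zc_46
  · exact zc_47

/-- the generators `b, …, i` are conjugate -/
theorem conj_all : ∀ s, 1 ≤ s → s < 9 → ∃ x : WP 9 W1, δ s = x * δ 1 * x⁻¹ := by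
  intro s hs1 hs
  interval_cases s
  · exact ⟨1, by rw [one_mul, inv_one, mul_one]⟩
  · exact ⟨_, conj_of_word hδ [1, 2] 1 2 (by
      have h := ids 70 (by decide) (by decide)
      rw [cw_2] at h
      exact h)⟩
  · exact ⟨_, conj_of_word hδ [2, 3, 1, 2] 1 3 (by
      have h := ids 71 (by decide) (by decide)
      rw [cw_3] at h
      exact h)⟩
  · exact ⟨_, conj_of_word hδ [3, 4, 2, 3, 1, 2] 1 4 (by
      have h := ids 72 (by decide) (by decide)
      rw [cw_4] at h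
      exact h)⟩
  · exact ⟨_, conj_of_word hδ [4, 5, 3, 4, 2, 3, 1, 2] 1 5 (by
      have h := ids 73 (by decide) (by decide)
      rw [cw_5] at h
      exact h)⟩
  · exact ⟨_, conj_of_word hδ [5, 6, 4, 5, 3, 4, 2, 3, 1, 2] 1 6 (by
      have h := ids 74 (by decide) (by decide)
      rw [cw_6] at h
      exact h)⟩
  · exact ⟨_, conj_of_word hδ [3, 7, 2, 3, 1, 2] 1 7 (by
      have h := ids 75 (by decide) (by decide)
      rw [cw_7] at h
      exact h)⟩
  · exact ⟨_, conj_of_word hδ [7, 8, 3, 7, 2, 3, 1, 2] 1 8 (by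
      have h := ids 76 (by decide) (by decide)
      rw [cw_8] at h
      exact h)⟩

/-- the centre is trivial -/
theorem cen_one : ∀ c : WP 9 W1, (∀ x, c * x = x * c) → c = 1 := by
  obtain ⟨φ, hφ, hcard, hbase⟩ := order_and_base
  exact fun c hc => central_eq_one B_hP B_hC φ hφ [1, 3, 4, 5, 6, 7, 8] (by decide +kernel) (allB_iff.mpr O7B.cenF_all)
    [0, 1, 3, 5, 6, 10] hbase (by decide) c hc

/-- the subgroup centralises `z` -/
theorem z_comm : ∀ h ∈ O7B.cert.subgp δ, h * (zw.map δ).prod = (zw.map δ).prod * h :=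
  centralizes hδ O7B.cert zw (by decide) 37 zc_all (fun wid h1 h2 => by
    have h1' : 40 ≤ wid := h1
    have h2' : wid < 48 := h2
    exact ids (37 + wid) (by omega) (by omega))

/-- a relator of odd length -/
def oddw : List ℕ := [1, 2, 3, 4, 5, 6, 7, 1, 2, 3, 4, 5, 6, 7, 1, 2, 3, 4, 5, 6, 7, 1, 2, 3, 4, 5, 6, 7, 1, 2, 3, 4, 5, 6, 7, 1, 2, 3, 4, 5, 6, 7, 1, 2, 3, 4, 5, 6, 7, 1, 2, 3, 4, 5, 6, 7, 1, 2, 3, 4, 5, 6, 7]

theorem B_chkRoots : O7B.cert.chkRoots = true := by decide +kernel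

theorem B_hO : Cert.OChecks O7B.cert := ⟨O7B.chkO_all, B_chkRoots⟩

theorem M_cnt0 : O7B.cert.cnt 0 = 1 := by decide +kernel

theorem M_cnt1 : O7B.cert.cnt 1 = 126 := by decide +kernel

theorem M_cnt2 : O7B.cert.cnt 2 = 224 := by
  have hs := Cert.cnt_sum3 B_hO (by decide)
  rw [M_cnt0, M_cnt1] at hs
  have hn : O7B.cert.n = 351 := by decide
  omega

theorem M_comp0 : O7B.cert.comp 0 = 0 := by decide +kernel

theorem M_max : ∀ M : Subgroup (WP 9 W1), (O7B.cert.subgp δ) ≤ M → M = (O7B.cert.subgp δ) ∨ M = ⊤ :=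
  Cert.maximal_of_rank3 B_hP B_hC B_hO (by decide) M_comp0 M_cnt0 (Cert.cnt_sum3 B_hO (by decide))
    (by rw [M_cnt1]; decide) (by rw [M_cnt2]; decide)

theorem fin : Finite (WP 9 W1) := fin1.1

theorem nontriv : Nontrivial (WP 9 W1) := by
  have := fin
  exact Finite.one_lt_card_iff_nontrivial.mp (by rw [card_eq]; norm_num)

/-- the presented group is simple -/
theorem simple : IsSimpleGroup (WP 9 W1) := by
  have := fin
  have := nontriv
  have hz : (zw.map δ).prod = δ 1 := by simp [zw]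
  have hHz : ∀ h ∈ (O7B.cert.subgp δ), h * δ 1 = δ 1 * h := by
    intro h hh
    have e := z_comm h hh
    rwa [hz] at e
  refine simple_of_transp1 δ 9 B_hP.hgen (δ 1) (hδ 1) ?_ (O7B.cert.subgp δ) hHz M_max cen_one oddw ?_ (by decide)
    (WP.gen_word 9 W1 (by decide))
  · intro s hs
    rcases Nat.eq_zero_or_pos s with h0 | h0
    · left; rw [h0]; exact δ_zero
    · right; exact conj_all s h0 hs
  · intro s hs
    have h1 : 1 ≤ s ∧ s < 9 := by
      revert s
      decide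
    exact conj_all s h1.1 h1.2

end Cfsg.Agent.Lib.Helper38.O7S
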