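import Cfsg.Agent.Lib.Helper39.ONOrd
import Cfsg.Agent.Lib.Helper38.L37

/-!
The subgroup `H = ⟨a, …, f⟩` of the presented O'Nan group has a normal subgroup of index 2
isomorphic to `PSL₃(7)`: `H` is the image of the group `P` presented by the relators on
`a, …, f`, of order 3753792, all of whose nontrivial normal subgroups contain the commutators; `P`
acts faithfully on the set `PSL₃(7)` by twisted translations, and the elements acting by left
translations form the subgroup of index 2.
-/

set_option autoImplicit false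
set_option maxRecDepth 100000
set_option maxHeartbeats 0

namespace Cfsg.Agent.Lib.Helper38.ONL37

open Cfsg.Agent.Lib.Helper38 Cfsg.Agent.Lib.Helper39 Cfsg.Agent.Lib.Helper39.ONOrd

theorem WH_sub : ∀ w ∈ WH, w ∈ L37.WH := by decide

/-- **The subgroup `PSL₃(7)` of index 2.** -/
theorem main : ∃ N : Subgroup ↥H, N.Normal ∧ N.index = 2 ∧
    Nonempty (↥N ≃* Matrix.ProjectiveSpecialLinearGroup (Fin 3) (ZMod 7)) := by
  obtain ⟨Φ, hΦ⟩ := L37.hom_of WH WH_sub
  have h := L37.abstract_main δ Φ hΦ (WP.closure_gen 8 WH) hδ cardP P_normal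
  obtain ⟨N', h1, h2, ⟨e⟩⟩ := L37.transfer ψ ψ_inj H range_eq (L37.NN Φ) h.1
  obtain ⟨e2⟩ := h.2
  exact ⟨N', h1, h2, ⟨e.trans e2⟩⟩

end Cfsg.Agent.Lib.Helper38.ONL37
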