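import Cfsg.Agent.Lib.Helper22.PTDefs
import Cfsg.Agent.Lib.Helper80.Schur

/-!
# Project PT (helper22, S4705), piece ODDC

A perfect group with a faithful irreducible character of odd degree has a centre of odd order
(a central involution would act as `-1`, of determinant `-1`).
-/

set_option autoImplicit false

namespace Cfsg.Agent.Lib.Helper38.PT

open Cfsg Cfsg.Agent.Lib.Helper22.BFD Cfsg.Agent.Lib.Helper22.PT
open scoped ComplexConjugate

universe u

variable {G : Type u} [Group G] [Fintype G]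

/-- PIECE ODDC -/
theorem oddc (ζ : G → ℂ) (hirr : IsIrrCharacter G ζ) (hf : ∀ g : G, ζ g = ζ 1 → g = 1)
    (n : ℕ) (hdeg : ζ 1 = (n : ℂ)) (hn : Odd n) (hperf : commutator G = ⊤) :
    Odd (Nat.card (Subgroup.center G)) := by
  by_contra hodd
  rw [Nat.not_odd_iff_even] at hodd
  obtain ⟨m, ρ, hρ, hχ⟩ := hirr
  have hρ' : ρ.IsIrreducible := hρ
  -- the degree
  have h1 : ρ.character 1 = (m : ℂ) := by
    unfold Representation.character
    rw [map_one]
    have h := LinearMap.trace_id ℂ (Fin m → ℂ)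
    rw [Module.finrank_fintype_fun_eq_card, Fintype.card_fin] at h
    exact h
  have hmn : m = n := by
    have h2 : (m : ℂ) = (n : ℂ) := by rw [← h1, hχ, hdeg]
    exact_mod_cast h2
  subst hmn
  -- a central involution
  have h2dvd : 2 ∣ Nat.card (Subgroup.center G) := hodd.two_dvd
  have hfact2 : Fact (Nat.Prime 2) := ⟨Nat.prime_two⟩
  obtain ⟨c, hc⟩ := exists_prime_orderOf_dvd_card' 2 h2dvd
  have hcG : orderOf (c : G) = 2 := by rw [Subgroup.orderOf_coe]; exact hc
  have hc1 : (c : G) ≠ 1 := by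
    intro h
    rw [h, orderOf_one] at hcG
    exact absurd hcG (by norm_num)
  have hc2 : (c : G) * (c : G) = 1 := by
    have := pow_orderOf_eq_one (c : G)
    rw [hcG, pow_two] at this
    exact this
  -- it acts as a scalar `l`, with `l ^ 2 = 1`, `l ≠ 1`
  obtain ⟨l, hl⟩ := Cfsg.Agent.Lib.Helper80.central_scalar ρ (c : G) c.2
  have hmpos : 0 < m := hn.pos
  have hl2 : l * l = 1 := by
    have h3 : ρ ((c : G) * (c : G)) = ρ (c : G) * ρ (c : G) := map_mul ρ _ _
    rw [hc2, map_one, hl] at h3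
    have h6 := congrArg (fun f : (Fin m → ℂ) →ₗ[ℂ] (Fin m → ℂ) => f (fun _ => 1) ⟨0, hmpos⟩) h3
    simp at h6
    exact h6.symm
  have hl1 : l ≠ 1 := by
    intro h
    apply hc1
    apply hf
    rw [← hχ]
    unfold Representation.character
    rw [hl, h, one_smul, map_one]
    rfl
  have hlm : l = -1 := by
    have h3 : (l - 1) * (l + 1) = 0 := by ring_nf; rw [pow_two, hl2]; ring
    rcases mul_eq_zero.mp h3 with h4 | h4
    · exact absurd (sub_eq_zero.mp h4) hl1
    · exact eq_neg_of_add_eq_zero_left h4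
  -- the determinant is a homomorphism to a commutative group, trivial on the perfect group `G`
  let d : G →* ℂˣ := (Units.map (LinearMap.det : ((Fin m → ℂ) →ₗ[ℂ] (Fin m → ℂ)) →* ℂ)).comp
    (ρ : G →* ((Fin m → ℂ) →ₗ[ℂ] (Fin m → ℂ))).toHomUnits
  have hker : commutator G ≤ d.ker := Abelianization.commutator_subset_ker d
  rw [hperf] at hker
  have hdc : d (c : G) = 1 := MonoidHom.mem_ker.mp (hker (Subgroup.mem_top _))
  have hdc' : ((d (c : G) : ℂˣ) : ℂ) = LinearMap.det (ρ (c : G)) := rfl
  rw [hdc, Units.val_one, hl, hlm, LinearMap.det_smul, Module.finrank_fintype_fun_eq_card,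
    Fintype.card_fin, LinearMap.det_id, mul_one, hn.neg_one_pow] at hdc'
  norm_num at hdc'

end Cfsg.Agent.Lib.Helper38.PT
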