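import Cfsg.Agent.Lib.Helper96.HyDefs
import Cfsg.Agent.Lib.Helper51.HypPairs
import Cfsg.Prelude.Def_GeometricClasses
import Cfsg.Prelude.Def_Classical

/-!
Project PE (S5988, helper96), piece GLUEH: for `quadFormPlus`, the Prelude notion "nondegenerate
of plus type" is `Hyp` of the polar bilinear form (same proof as `Helper47.Hy.glue_form`, last
part, for `quadFormOdd`).
-/

set_option autoImplicit false
set_option linter.unusedSectionVars false
set_option linter.unusedVariables false

namespace Cfsg.Agent.Lib.Helper38.Pe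

universe u

section Concrete

open Module Cfsg.Agent.Lib.Helper96.Sp Cfsg.Agent.Lib.Helper96.Hy Matrix
open scoped MatrixGroups

variable {F : Type u} [Field F] [Fintype F]

theorem glueh_polar (d : ℕ) (u v : Fin d ⊕ Fin d → F) :
    QuadraticMap.polarBilin (Cfsg.Agent.Lib.Helper51.QPlus d F) u v
      = QuadraticMap.polar (Cfsg.quadFormPlus d F) u v := by
  rw [QuadraticMap.polarBilin_apply_apply, Cfsg.Agent.Lib.Helper51.coe_QPlus]

theorem glueh_self (d : ℕ) (v : Fin d ⊕ Fin d → F) :
    QuadraticMap.polar (Cfsg.quadFormPlus d F) v v = 2 * Cfsg.quadFormPlus d F v := by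
  rw [← Cfsg.Agent.Lib.Helper51.coe_QPlus, QuadraticMap.polar_self, two_nsmul, two_mul]

-- PIECE GLUEH
theorem glue_hyp_plus (h2 : (2 : F) ≠ 0) (d : ℕ) (W : Submodule F (Fin d ⊕ Fin d → F)) :
    (Cfsg.Geo.IsNondegenerateOn (QuadraticMap.polar (Cfsg.quadFormPlus d F)) W ∧
        Cfsg.Geo.IsPlusTypeOn (Cfsg.quadFormPlus d F) W) ↔
      Hyp (QuadraticMap.polarBilin (Cfsg.Agent.Lib.Helper51.QPlus d F)) W := by
  have hND : Cfsg.Geo.IsNondegenerateOn (QuadraticMap.polar (Cfsg.quadFormPlus d F)) W ↔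
      ND (QuadraticMap.polarBilin (Cfsg.Agent.Lib.Helper51.QPlus d F)) W := by
    constructor
    · intro hnd u hu h
      by_contra hne
      obtain ⟨x, hx, hxne⟩ := (hnd u hu hne).2
      apply hxne
      rw [← glueh_polar]
      exact h x hx
    · intro hnd w hw hne
      have key : ∃ x ∈ W, QuadraticMap.polar (Cfsg.quadFormPlus d F) w x ≠ 0 := by
        by_contra hcon
        push Not at hcon
        apply hne
        apply hnd w hw
        intro v hv
        rw [glueh_polar]
        exact hcon v hv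
      obtain ⟨x, hx, hxne⟩ := key
      exact ⟨⟨x, hx, by rw [QuadraticMap.polar_comm]; exact hxne⟩, ⟨x, hx, hxne⟩⟩
  have hTS : ∀ U : Submodule F (Fin d ⊕ Fin d → F),
      Cfsg.Geo.IsTotallySingularQuad (Cfsg.quadFormPlus d F) U ↔
        Orth (QuadraticMap.polarBilin (Cfsg.Agent.Lib.Helper51.QPlus d F)) U U := by
    intro U
    constructor
    · intro hU u hu v hv
      rw [glueh_polar]
      unfold QuadraticMap.polar
      rw [hU _ (U.add_mem hu hv), hU u hu, hU v hv]
      simp
    · intro hU w hw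
      have h1 := hU w hw w hw
      rw [glueh_polar, glueh_self] at h1
      rcases mul_eq_zero.1 h1 with h1 | h1
      · exact absurd h1 h2
      · exact h1
  constructor
  · rintro ⟨h1, U, hUW, hU, hdim⟩
    exact ⟨hND.1 h1, U, hUW, (hTS U).1 hU, hdim⟩
  · rintro ⟨h1, U, hUW, hU, hdim⟩
    exact ⟨hND.2 h1, U, hUW, (hTS U).2 hU, hdim⟩

end Concrete

end Cfsg.Agent.Lib.Helper38.Pe
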