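import Mathlib
import Cfsg.Agent.Lib.Helper52.SP8EBDefs

/-!
# SP8-EB (helper52, for S5823), piece RMEM

The transported pure tensors of quaternion elements form a subgroup: every element of `Rsub e P`
(their closure) is already one of them.
-/

set_option autoImplicit false

namespace Cfsg.Agent.Lib.Helper52.SP8EB

open Matrix Cfsg.Geo Cfsg.Agent.Lib.Helper71.Asch

variable {n : ℕ} {F : Type*} [Field F] [Fintype F]

/-- RMEM. -/
theorem RMEM (h1 : HQmul F) (h2 : HQinv F) (e : Fin n ≃ (Fin 3 → Fin 2)) (P : GL (Fin n) F) :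
    HRmem e P := by
  intro g hg
  unfold Rsub at hg
  induction hg using Subgroup.closure_induction with
  | mem x hx => exact hx
  | one =>
    refine ⟨fun _ => 1, fun _ => ⟨Matrix.det_one, Or.inl rfl⟩, ?_⟩
    show (1 : GL (Fin n) F).1 = _
    rw [Units.val_one, pt_one, tw_one]
  | mul x y _ _ hx hy =>
    obtain ⟨cs, hcs, hx⟩ := hx
    obtain ⟨ds, hds, hy⟩ := hy
    refine ⟨fun i => cs i * ds i, fun i => h1 _ _ (hcs i) (hds i), ?_⟩
    rw [Units.val_mul, hx, hy, tw_mul, pt_mul]
  | inv x _ hx =>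
    obtain ⟨cs, hcs, hx⟩ := hx
    choose ds hds hcd hdc using fun i => h2 (cs i) (hcs i)
    refine ⟨ds, hds, ?_⟩
    have hone : x.1 * tw e P (pt ds) = 1 := by
      rw [hx, tw_mul, pt_mul]
      have hfun : (fun i => cs i * ds i) = fun _ => (1 : Matrix (Fin 2) (Fin 2) F) := funext hcd
      rw [hfun, pt_one, tw_one]
    calc (x⁻¹ : GL (Fin n) F).1
        = (x⁻¹ : GL (Fin n) F).1 * (x.1 * tw e P (pt ds)) := by rw [hone, mul_one]
      _ = ((x⁻¹ : GL (Fin n) F).1 * x.1) * tw e P (pt ds) := by rw [mul_assoc]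
      _ = tw e P (pt ds) := by rw [← Units.val_mul, inv_mul_cancel, Units.val_one, one_mul]

end Cfsg.Agent.Lib.Helper52.SP8EB
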