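import Mathlib
import Cfsg.Prelude.Def_GeometricClasses
import Cfsg.Prelude.Def_LieClassical
import Cfsg.Agent.Lib.Helper71.Asch0
import Cfsg.Agent.Lib.Helper38.O9B8X

/-! Project SU8 (helper50, S5820), piece B8W: the tensor-induced branch in the form
`H ≤ tensorWreathSubgroup m k e P`, `2 ≤ m` (a corollary of `Helper44.O9.B8X`, the proof of
`Helper86.ASB8Main.B8_of` keeping its data). -/

set_option autoImplicit false

namespace Cfsg.Agent.Lib.Helper38.SU8B8W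

open Matrix Cfsg.Geo Cfsg.Agent.Lib.Helper71.Asch

variable {n : ℕ} {F : Type*} [Field F] [Fintype F] {q : ℕ}

/-- B8W: the tensor-induced branch, in the form `H ≤ tensorWreathSubgroup m k e P`
(the proof of `Helper86.ASB8Main.B8_of` up to `hHW`). -/
theorem B8W (hn : 3 ≤ n) (H L : Subgroup (GL (Fin n) F))
    (hLa : ActsAbsolutelyIrreducibly (matrixSet L))
    (k : ℕ) (Ps : Fin k → Subgroup (GL (Fin n) F)) (hk : 2 ≤ k)
    (hns : ∀ i, ¬ Ps i ≤ scalars (Fin n) F)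
    (hcomm : ∀ i j, i ≠ j → ∀ x ∈ Ps i, ∀ y ∈ Ps j, x * y = y * x)
    (hsup : L = ⨆ i, Ps i)
    (hperm : ∀ h ∈ H, ∃ σ : Equiv.Perm (Fin k), ∀ i,
      (Ps i).map (MulAut.conj h).toMonoidHom = Ps (σ i))
    (htrans : ∀ i j, ∃ h ∈ H, (Ps i).map (MulAut.conj h).toMonoidHom = Ps j) :
    ∃ (m : ℕ) (e : Fin n ≃ (Fin k → Fin m)) (P : GL (Fin n) F), 2 ≤ m ∧
      H ≤ tensorWreathSubgroup m k e P := by
  obtain ⟨m, e, P, hm, hH, -⟩ :=
    Cfsg.Agent.Lib.Helper44.O9.B8X hn H L hLa k Ps hk hns hcomm hsup hperm htrans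
  exact ⟨m, e, P, hm, hH⟩

end Cfsg.Agent.Lib.Helper38.SU8B8W
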