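import Cfsg.Agent.Lib.Helper38.Sp4BData

set_option maxRecDepth 100000
set_option maxHeartbeats 0

namespace Cfsg.Agent.Lib.Helper38.Sp4B

theorem chkV_0 : allFrom 0 161 cert.chkV = true := by decide +kernel

end Cfsg.Agent.Lib.Helper38.Sp4B
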