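import Cfsg.Agent.Lib.Helper38.Sp4CV0

set_option maxRecDepth 100000
set_option maxHeartbeats 0

namespace Cfsg.Agent.Lib.Helper38.Sp4C

theorem chkV_all : ∀ v < 144, cert.chkV v = true := by
  intro v hv
  exact allFrom_iff.mp chkV_0 v (by omega) (by omega)

end Cfsg.Agent.Lib.Helper38.Sp4C
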