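import Cfsg.Agent.Lib.Helper38.CosetWP

/-!
A presentation of the symplectic group `Sp₄(4)` on six involutions `a, c, d, e, f, z`
(in the Held group: the generators `a, c, d, e, f` and `z = bcdgdcb`), and the presentations of
the subgroups `⟨a, c, d, e, f⟩` and `⟨a, d, e, f⟩` contained in it.
-/

namespace Cfsg.Agent.Lib.Helper38.Sp4

/-- the relator words of the presentation of `Sp₄(4)` -/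
def W0 : List (List ℕ) := [
  [0, 2, 0, 2],
  [0, 3, 0, 3],
  [0, 4, 0, 4],
  [2, 3, 2, 3, 2, 3],
  [2, 4, 2, 4, 2, 4],
  [3, 4, 3, 4],
  [1, 0, 1, 0],
  [1, 2, 1, 2, 1, 2, 1, 2, 1, 2, 1, 2, 1, 2, 1, 2, 1, 2, 1, 2],
  [1, 3, 1, 3],
  [1, 4, 1, 4],
  [0, 2, 1, 2, 1, 2, 1, 2, 1, 2, 1],
  [1, 2, 1, 2, 3, 2, 1, 2, 1, 2, 3, 2, 1, 2, 3],
  [1, 2, 1, 2, 4, 2, 1, 3, 2, 1, 2, 4, 2, 3, 1, 2, 1, 2, 4, 2, 3],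
  [5, 0, 5, 0, 5, 0, 5, 0, 5, 0, 5, 0],
  [5, 1, 5, 1],
  [5, 2, 5, 2, 5, 2, 5, 2, 5, 2],
  [5, 3, 5, 3, 5, 3],
  [5, 4, 5, 4, 5, 4, 5, 4],
  [2, 3, 2, 4, 5, 2, 3, 5, 4, 2, 5]]

/-- the relators not involving `z` -/
def W1 : List (List ℕ) := [
  [0, 2, 0, 2],
  [0, 3, 0, 3],
  [0, 4, 0, 4],
  [2, 3, 2, 3, 2, 3],
  [2, 4, 2, 4, 2, 4],
  [3, 4, 3, 4],
  [1, 0, 1, 0],
  [1, 2, 1, 2, 1, 2, 1, 2, 1, 2, 1, 2, 1, 2, 1, 2, 1, 2, 1, 2],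
  [1, 3, 1, 3],
  [1, 4, 1, 4],
  [0, 2, 1, 2, 1, 2, 1, 2, 1, 2, 1],
  [1, 2, 1, 2, 3, 2, 1, 2, 1, 2, 3, 2, 1, 2, 3],
  [1, 2, 1, 2, 4, 2, 1, 3, 2, 1, 2, 4, 2, 3, 1, 2, 1, 2, 4, 2, 3],
  [5]]

/-- the relators involving `a, d, e, f` only -/
def W2 : List (List ℕ) := [
  [0, 2, 0, 2],
  [0, 3, 0, 3],
  [0, 4, 0, 4],
  [2, 3, 2, 3, 2, 3],
  [2, 4, 2, 4, 2, 4],
  [3, 4, 3, 4],
  [1],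
  [5]]

end Cfsg.Agent.Lib.Helper38.Sp4
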