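import Cfsg.Agent.Lib.Helper38.F4
import Cfsg.Agent.Lib.Helper38.Sp4Pres

/-!
The six generators of the presentation `Sp4.W0` as symplectic matrices over the field with four
elements, and the homomorphism `θ` of the presented group into the symplectic group.
-/

set_option autoImplicit false
set_option maxRecDepth 100000
set_option maxHeartbeats 0

namespace Cfsg.Agent.Lib.Helper38.Sp4

open Cfsg.Agent.Lib.Helper38

/-- the index type of the symplectic group -/
abbrev ι : Type := Fin 2 ⊕ Fin 2

/-- the number of an index -/
def enc : ι → ℕ
  | .inl i => i.val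
  | .inr i => 2 + i.val

/-- the field element with the number `d` -/
def ofN : ℕ → F4
  | 0 => F4.z
  | 1 => F4.o
  | 2 => F4.w
  | _ => F4.v

/-- the entry of the matrix with the code `c` at the place `(m, n)` -/
def en (c m n : ℕ) : F4 := ofN (c / 4 ^ (4 * m + n) % 4)

/-- the matrix with the code `c` -/
def mk (c : ℕ) : Matrix ι ι F4 := Matrix.of fun i j => en c (enc i) (enc j)

/-- the code of the identity matrix -/
def idc : ℕ := 1074791425

theorem mk_idc : mk idc = 1 := by decide +kernel

theorem mk_apply (c : ℕ) (i j : ι) : mk c i j = en c (enc i) (enc j) := rfl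

theorem enc_lt (i : ι) : enc i < 4 := by
  rcases i with i | i
  · have := i.2; simp only [enc]; omega
  · have := i.2; simp only [enc]; omega

theorem sum_enc (f : ℕ → F4) : ∑ k : ι, f (enc k) = f 0 + f 1 + f 2 + f 3 := by
  simp only [Fintype.sum_sum_type, Fin.sum_univ_two, enc]
  simp only [Fin.val_zero, Fin.val_one, Nat.add_zero, Nat.reduceAdd]
  ring

/-- the check that the matrix with the code `c` is the product of those with the codes `a`, `b` -/
def mulB (a b c : ℕ) : Bool :=
  (List.range 4).all fun m => (List.range 4).all fun n =>
    decide (en a m 0 * en b 0 n + en a m 1 * en b 1 n + en a m 2 * en b 2 n + en a m 3 * en b 3 n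
      = en c m n)

theorem mul_spec (a b c : ℕ) (h : mulB a b c = true) : mk a * mk b = mk c := by
  ext i j
  rw [Matrix.mul_apply]
  simp only [mk_apply]
  rw [sum_enc (fun k => en a (enc i) k * en b k (enc j))]
  have h1 := List.all_eq_true.mp (List.all_eq_true.mp h (enc i) (List.mem_range.mpr (enc_lt i)))
    (enc j) (List.mem_range.mpr (enc_lt j))
  exact of_decide_eq_true h1

/-- the vector with the code `v` -/
def vc (v : ℕ) : ι → F4 := fun i => ofN (v / 4 ^ enc i % 4)

/-- the check that the matrix with the code `a` maps the vector with the code `v` to that with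
the code `u` -/
def mvB (a v u : ℕ) : Bool :=
  (List.range 4).all fun m =>
    decide (en a m 0 * ofN (v / 4 ^ 0 % 4) + en a m 1 * ofN (v / 4 ^ 1 % 4) +
      en a m 2 * ofN (v / 4 ^ 2 % 4) + en a m 3 * ofN (v / 4 ^ 3 % 4) = ofN (u / 4 ^ m % 4))

theorem mv_spec (a v u : ℕ) (h : mvB a v u = true) : (mk a).mulVec (vc v) = vc u := by
  funext i
  show ∑ k : ι, mk a i k * vc v k = vc u i
  simp only [mk_apply, vc]
  rw [sum_enc (fun k => en a (enc i) k * ofN (v / 4 ^ k % 4))]
  have h1 := List.all_eq_true.mp h (enc i) (List.mem_range.mpr (enc_lt i))
  exact of_decide_eq_true h1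

/-- the codes of the matrices of the generators `a, c, d, e, f, z` -/
def cds : List ℕ := [1074791441, 1074824193, 1141900305, 1074807825, 1074811969, 1081157043]

/-- the code of the matrix of a generator -/
def cd (s : ℕ) : ℕ := cds.getD s idc

theorem cd_ge (s : ℕ) (hs : 6 ≤ s) : cd s = idc := by
  unfold cd
  exact List.getD_eq_default _ _ (by simpa [cds] using hs)

theorem M_sq : ∀ s, mk (cd s) * mk (cd s) = 1 := by
  intro s
  by_cases hs : s < 6
  · rw [← mk_idc]
    interval_cases s <;> exact mul_spec _ _ _ (by decide +kernel)
  · rw [cd_ge s (by omega), mk_idc, one_mul]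

theorem M_symp : ∀ s, mk (cd s) ∈ Matrix.symplecticGroup (Fin 2) F4 := by
  intro s
  rw [SymplecticGroup.mem_iff]
  by_cases hs : s < 6
  · interval_cases s <;> decide +kernel
  · rw [cd_ge s (by omega), mk_idc, Matrix.transpose_one, one_mul, mul_one]

/-- the images of the generators in the symplectic group -/
def sp (s : ℕ) : Matrix.symplecticGroup (Fin 2) F4 := ⟨mk (cd s), M_symp s⟩

/-- the matrix of an element of the symplectic group -/
def mat : Matrix.symplecticGroup (Fin 2) F4 →* Matrix ι ι F4 :=
  (Matrix.symplecticGroup (Fin 2) F4).subtype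

theorem mat_inj : Function.Injective mat := Subtype.val_injective

theorem mat_sp (s : ℕ) : mat (sp s) = mk (cd s) := rfl

/-! ### The relators -/

/-- the check of a chain of partial products of a relator -/
def chainB : List ℕ → List ℕ → Bool
  | [], [c] => c == idc
  | s :: w, c :: c' :: cs => mulB (cd s) c' c && chainB w (c' :: cs)
  | _, _ => false

theorem chain_spec : ∀ (w cs : List ℕ), chainB w cs = true →
    ∀ c rest, cs = c :: rest → (w.map (fun s => mk (cd s))).prod = mk c
  | [], cs, h => by
    intro c rest e
    match cs, h, e with
    | [c'], h, e =>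
      have hc : c' = idc := by simpa [chainB] using h
      have e' : c = c' := (List.cons.inj e).1.symm
      rw [e', hc, mk_idc]
      rfl
  | s :: w, cs, h => by
    intro c rest e
    match cs, h, e with
    | c0 :: c' :: cs', h, e =>
      have h' : mulB (cd s) c' c0 = true ∧ chainB w (c' :: cs') = true := by
        simpa [chainB] using h
      have e' : c = c0 := (List.cons.inj e).1.symm
      rw [List.map_cons, List.prod_cons, chain_spec w (c' :: cs') h'.2 c' cs' rfl, mul_spec _ _ _ h'.1, e']

/-- the check of all relators -/
def relsB : List (List ℕ) → List (List ℕ) → Bool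
  | [], [] => true
  | w :: ws, c :: cs => (chainB w c && (c.head? == some idc)) && relsB ws cs
  | _, _ => false

theorem rels_spec : ∀ (ws cs : List (List ℕ)), relsB ws cs = true →
    ∀ w ∈ ws, (w.map (fun s => mk (cd s))).prod = 1
  | [], _, _ => by intro w hw; simp at hw
  | w0 :: ws, cs, h => by
    match cs, h with
    | c :: cs', h =>
      have h' : (chainB w0 c = true ∧ c.head? = some idc) ∧ relsB ws cs' = true := by
        simpa [relsB] using h
      intro w hw
      rcases List.mem_cons.mp hw with rfl | hw
      · obtain ⟨c0, rest, rfl⟩ : ∃ c0 rest, c = c0 :: rest := by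
          cases c with
          | nil => simp at h'
          | cons a l => exact ⟨a, l, rfl⟩
        have hc : c0 = idc := by simpa using h'.1.2
        rw [chain_spec w (c0 :: rest) h'.1.1 c0 rest rfl, hc, mk_idc]
      · exact rels_spec ws cs' h'.2 w hw

/-- the chains of partial products of the relators -/
def CS : List (List ℕ) := [
  [1074791425, 1074791441, 1141900289, 1141900305, 1074791425],
  [1074791425, 1074791441, 1074807809, 1074807825, 1074791425],
  [1074791425, 1074791441, 1074811985, 1074811969, 1074791425],
  [1074791425, 1141900305, 1141915649, 68173841, 68174849, 1074807825, 1074791425],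
  [1074791425, 1141900305, 1141919829, 336613445, 336614481, 1074811969, 1074791425],
  [1074791425, 1074807825, 1074795601, 1074811969, 1074791425],
  [1074791425, 1074824193, 1074824209, 1074791441, 1074791425],
  [1074791425, 1074824193, 3289416721, 3289435153, 135318529, 135315457, 3356540945, 3356527633, 1141935105, 1141900289, 1074791441, 1074824209, 3289416705, 3289435137, 135318545, 135315473, 3356540929, 3356527617, 1141935121, 1141900305, 1074791425],
  [1074791425, 1074824193, 1074840593, 1074807825, 1074791425],
  [1074791425, 1074824193, 1074844737, 1074811969, 1074791425],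
  [1074791425, 1074791441, 1141900289, 1141935105, 3356527633, 3356540945, 135315457, 135318529, 3289435153, 3289416721, 1074824193, 1074791425],
  [1074791425, 1074824193, 3289416721, 3289435153, 135318529, 135316497, 3423650817, 3423633409, 1276149777, 1276118033, 1209009153, 1209027601, 68176897, 68174849, 1074807825, 1074791425],
  [1074791425, 1074824193, 3289416721, 3289435153, 135318529, 135320585, 3692090393, 3692081177, 3692063753, 2953866265, 2953886745, 202423305, 202416133, 2886770709, 2886732805, 2886793221, 1410398229, 1410355221, 68177925, 68174849, 1074807825, 1074791425],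
  [1074791425, 1081157043, 1081157058, 1080128994, 1080128899, 1074807825, 1074807809, 1081173427, 1081173442, 1080112610, 1080112515, 1074791441, 1074791425],
  [1074791425, 1081157043, 1081189811, 1074824193, 1074791425],
  [1074791425, 1081157043, 1701914050, 1698985432, 272922012, 272654740, 1900044756, 1902458350, 1147483531, 1141900305, 1074791425],
  [1074791425, 1081157043, 1081173442, 1080112610, 1080128899, 1074807825, 1074791425],
  [1074791425, 1081157043, 1081152755, 1079014849, 1079010689, 1076970547, 1076966771, 1074811969, 1074791425],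
  [1074791425, 1141900305, 1141915649, 68173841, 68178965, 69296391, 1696686374, 1696662535, 1701917095, 1701914050, 1081157043, 1074791425]]

theorem rels_ok : relsB W0 CS = true := by decide +kernel

theorem sp_sq : ∀ s, sp s * sp s = 1 := fun s => mat_inj (by
  rw [map_mul, mat_sp, M_sq, map_one])

theorem sp_ge : ∀ s, 6 ≤ s → sp s = 1 := fun s hs => mat_inj (by
  rw [mat_sp, cd_ge s hs, mk_idc, map_one])

theorem sp_rel : ∀ w ∈ W0, (w.map sp).prod = 1 := fun w hw => mat_inj (by
  rw [map_list_prod, List.map_map, map_one]
  exact rels_spec W0 CS rels_ok w hw)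

/-- the homomorphism of the presented group into the symplectic group -/
noncomputable def θ : WP 6 W0 →* Matrix.symplecticGroup (Fin 2) F4 :=
  WP.lift 6 W0 sp sp_sq sp_ge sp_rel

theorem θ_gen (s : ℕ) : θ (WP.gen 6 W0 s) = sp s := WP.lift_gen 6 W0 sp sp_sq sp_ge sp_rel s

end Cfsg.Agent.Lib.Helper38.Sp4
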