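import Cfsg.Agent.Lib.Helper98.T73Defs
import Cfsg.Prelude.Def_GeometricClasses
import Cfsg.Agent.Lib.Helper47.ClassicalEmb

/-!
# Project T73 (helper98, S5973), piece DER2 (`exists_cpx_der`)

For `-1` a non-square and `d` even: `x = diag(A, A⁻ᵀ)` with `A` the block diagonal matrix of the
blocks `[[0, -1], [1, 0]]` (a commutator in `GL_2`) lies in `Ω⁺_{2d}(q)`, has `x² = -1`, is not
scalar, and all its invariant subspaces have even dimension.
-/

set_option autoImplicit false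

namespace Cfsg.Agent.Lib.Helper98.T73

open Cfsg.Agent.Lib.Helper47 Module Polynomial
open scoped commutatorElement

universe u

variable {F : Type u} [Field F]

theorem der2_half (h2 : (2 : F) ≠ 0) : (2 : F)⁻¹ + 2⁻¹ = 1 := by
  rw [← two_mul, mul_inv_cancel₀ h2]

/-- `diag(1, -1)` -/
def der2_a : GL (Fin 2) F :=
  ⟨!![1, 0; 0, -1], !![1, 0; 0, -1],
    by ext i j; fin_cases i <;> fin_cases j <;> simp [Matrix.mul_apply, Fin.sum_univ_two],
    by ext i j; fin_cases i <;> fin_cases j <;> simp [Matrix.mul_apply, Fin.sum_univ_two]⟩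

/-- `[[1, 1], [-1, 1]]` -/
def der2_b (h2 : (2 : F) ≠ 0) : GL (Fin 2) F :=
  ⟨!![1, 1; -1, 1], !![2⁻¹, -2⁻¹; 2⁻¹, 2⁻¹],
    by
      have h := der2_half h2
      ext i j; fin_cases i <;> fin_cases j <;>
        simp [Matrix.mul_apply, Fin.sum_univ_two, h],
    by
      have h := der2_half h2
      ext i j; fin_cases i <;> fin_cases j <;>
        simp [Matrix.mul_apply, Fin.sum_univ_two, h]⟩

theorem der2_J (h2 : (2 : F) ≠ 0) :
    ((⁅(der2_a : GL (Fin 2) F), der2_b h2⁆ : GL (Fin 2) F) : Matrix (Fin 2) (Fin 2) F) = !![0, -1; 1, 0] := by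
  have h := der2_half h2
  rw [commutatorElement_def]
  show (!![1, 0; 0, -1] : Matrix (Fin 2) (Fin 2) F) * !![1, 1; -1, 1] * !![1, 0; 0, -1] *
    !![2⁻¹, -2⁻¹; 2⁻¹, 2⁻¹] = !![0, -1; 1, 0]
  ext i j; fin_cases i <;> fin_cases j <;>
    simp [Matrix.mul_apply, Fin.sum_univ_two, h]
  linear_combination (-1 : F) * h

theorem der2_JJ (h2 : (2 : F) ≠ 0) :
    ((⁅(der2_a : GL (Fin 2) F), der2_b h2⁆ : GL (Fin 2) F) : Matrix (Fin 2) (Fin 2) F) *
      ((⁅(der2_a : GL (Fin 2) F), der2_b h2⁆ : GL (Fin 2) F) : Matrix (Fin 2) (Fin 2) F) = -1 := by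
  rw [der2_J h2]
  ext i j; fin_cases i <;> fin_cases j <;>
    simp [Matrix.mul_apply, Fin.sum_univ_two]

/-- the block diagonal embedding of `2 × 2` matrices into `d × d` matrices, `d = 2 e` -/
noncomputable def der2_phi (e d : ℕ) (hde : 2 * e = d) :
    Matrix (Fin 2) (Fin 2) F →+* Matrix (Fin d) (Fin d) F :=
  ((Matrix.reindexAlgEquiv F F (finProdFinEquiv.trans (finCongr hde))).toAlgHom.toRingHom).comp
    ((Matrix.blockDiagonalRingHom (Fin 2) (Fin e) F).comp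
      (Pi.constRingHom (Fin e) (Matrix (Fin 2) (Fin 2) F)))

theorem der2_omega {ι : Type} [Fintype ι] [DecidableEq ι] (Q : (ι → F) → F) :
    Cfsg.Geo.omegaGL Q = ⁅Cfsg.isometryGroup F Q, Cfsg.isometryGroup F Q⁆ := by
  unfold Cfsg.Geo.omegaGL Cfsg.Omega
  rw [commutator_def, Subgroup.map_commutator, ← MonoidHom.range_eq_map, Subgroup.range_subtype]

theorem der2_iso (d : ℕ) (A : GL (Fin d) F) :
    (hypMat.toHomUnits A : GL (Fin d ⊕ Fin d) F) ∈ Cfsg.isometryGroup F (Cfsg.quadFormPlus d F) := by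
  intro u _
  exact hypMat_dot A u

theorem der2_even (ι : Type) [Fintype ι] [DecidableEq ι] (hns : ¬ IsSquare (-1 : F))
    (X : Matrix ι ι F) (hX : X * X = (-1 : F) • (1 : Matrix ι ι F))
    (W : Submodule F (ι → F)) (hW : W.map (Matrix.toLin' X) ≤ W) : Even (finrank F W) := by
  rw [← Nat.not_odd_iff_even]
  intro hodd
  apply hns
  have hmem : ∀ w ∈ W, Matrix.toLin' X w ∈ W := fun w hw => hW (Submodule.mem_map_of_mem hw)
  set fr : W →ₗ[F] W := (Matrix.toLin' X).restrict hmem with hfr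
  have hsq : fr * fr = (-1 : F) • (LinearMap.id : W →ₗ[F] W) := by
    apply LinearMap.ext
    intro w
    apply Subtype.ext
    show Matrix.toLin' X (Matrix.toLin' X (w : ι → F)) = ((-1 : F) • w : W)
    rw [Matrix.toLin'_apply, Matrix.toLin'_apply, Matrix.mulVec_mulVec, hX, Matrix.smul_mulVec,
      Matrix.one_mulVec]
    rfl
  have hdet := congrArg LinearMap.det hsq
  rw [map_mul, LinearMap.det_smul, LinearMap.det_id, mul_one, hodd.neg_one_pow] at hdet
  exact ⟨LinearMap.det fr, hdet.symm⟩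

variable [Fintype F]

/-- DER2 -/
theorem exists_cpx_der (h2 : (2 : F) ≠ 0) (hns : ¬ IsSquare (-1 : F)) (d : ℕ) (hd : Even d)
    (hd2 : 2 ≤ d) :
    ∃ x : GL (Fin d ⊕ Fin d) F, x ∈ Cfsg.Geo.omegaGL (Cfsg.quadFormPlus d F) ∧
      (x : Matrix (Fin d ⊕ Fin d) (Fin d ⊕ Fin d) F)
          * (x : Matrix (Fin d ⊕ Fin d) (Fin d ⊕ Fin d) F)
        = (-1 : F) • (1 : Matrix (Fin d ⊕ Fin d) (Fin d ⊕ Fin d) F) ∧
      (∀ z : F, (x : Matrix (Fin d ⊕ Fin d) (Fin d ⊕ Fin d) F)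
        ≠ z • (1 : Matrix (Fin d ⊕ Fin d) (Fin d ⊕ Fin d) F)) ∧
      ∀ W : Submodule F (Fin d ⊕ Fin d → F),
        W.map (Matrix.toLin' (x : Matrix (Fin d ⊕ Fin d) (Fin d ⊕ Fin d) F)) ≤ W →
        Even (finrank F W) := by
  obtain ⟨e, he⟩ := hd
  have hde : 2 * e = d := by omega
  obtain ⟨φ, hφ⟩ : ∃ φ : Matrix (Fin 2) (Fin 2) F →+* Matrix (Fin d) (Fin d) F, φ = der2_phi e d hde :=
    ⟨_, rfl⟩
  obtain ⟨a', ha'⟩ : ∃ a' : GL (Fin d) F, a' = Units.map φ.toMonoidHom der2_a := ⟨_, rfl⟩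
  obtain ⟨b', hb'⟩ : ∃ b' : GL (Fin d) F, b' = Units.map φ.toMonoidHom (der2_b h2) := ⟨_, rfl⟩
  obtain ⟨A, hA⟩ : ∃ A : GL (Fin d) F, A = ⁅a', b'⁆ := ⟨_, rfl⟩
  have hAval : (A : Matrix (Fin d) (Fin d) F) =
      φ ((⁅(der2_a : GL (Fin 2) F), der2_b h2⁆ : GL (Fin 2) F) : Matrix (Fin 2) (Fin 2) F) := by
    rw [hA, ha', hb', ← map_commutatorElement]
    rfl
  have hAA : (A : Matrix (Fin d) (Fin d) F) * (A : Matrix (Fin d) (Fin d) F) = -1 := by
    rw [hAval, ← map_mul, der2_JJ h2, map_neg, map_one]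
  obtain ⟨x, hx⟩ : ∃ x : GL (Fin d ⊕ Fin d) F, x = hypMat.toHomUnits A := ⟨_, rfl⟩
  have hxval : (x : Matrix (Fin d ⊕ Fin d) (Fin d ⊕ Fin d) F) = hypMat A := by rw [hx]; rfl
  have hAinv : ((A⁻¹ : GL (Fin d) F) : Matrix (Fin d) (Fin d) F) = -(A : Matrix (Fin d) (Fin d) F) := by
    have h3 : (A : Matrix (Fin d) (Fin d) F) * (-(A : Matrix (Fin d) (Fin d) F)) = 1 := by
      rw [mul_neg, hAA, neg_neg]
    have h4 : ((A⁻¹ : GL (Fin d) F) : Matrix (Fin d) (Fin d) F) =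
        ((A⁻¹ : GL (Fin d) F) : Matrix (Fin d) (Fin d) F) *
          ((A : Matrix (Fin d) (Fin d) F) * (-(A : Matrix (Fin d) (Fin d) F))) := by
      rw [h3, mul_one]
    rw [h4, ← mul_assoc, ← Units.val_mul, inv_mul_cancel, Units.val_one, one_mul]
  have hxx : (x : Matrix (Fin d ⊕ Fin d) (Fin d ⊕ Fin d) F)
      * (x : Matrix (Fin d ⊕ Fin d) (Fin d ⊕ Fin d) F)
        = (-1 : F) • (1 : Matrix (Fin d ⊕ Fin d) (Fin d ⊕ Fin d) F) := by
    rw [hxval, hypMat_apply, hAinv, Matrix.fromBlocks_multiply]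
    simp only [Matrix.mul_zero, Matrix.zero_mul, add_zero, zero_add, Matrix.transpose_neg,
      neg_mul_neg, ← Matrix.transpose_mul, hAA, Matrix.transpose_one]
    rw [neg_smul, one_smul, ← Matrix.fromBlocks_one, Matrix.fromBlocks_neg]
    simp
  refine ⟨x, ?_, hxx, ?_, ?_⟩
  · rw [der2_omega, hx, hA, map_commutatorElement]
    exact Subgroup.commutator_mem_commutator (der2_iso d a') (der2_iso d b')
  · intro z hz
    apply hns
    have hAz : (A : Matrix (Fin d) (Fin d) F) = z • (1 : Matrix (Fin d) (Fin d) F) := by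
      ext i j
      have h3 := congrFun (congrFun hz (Sum.inl i)) (Sum.inl j)
      rw [hxval, hypMat_apply] at h3
      simpa [Matrix.one_apply, Matrix.smul_apply] using h3
    have h3 : z * z = -1 := by
      have h4 := hAA
      rw [hAz] at h4
      have h5 := congrFun (congrFun h4 ⟨0, by omega⟩) ⟨0, by omega⟩
      simpa using h5
    exact ⟨z, h3.symm⟩
  · intro W hW
    exact der2_even (Fin d ⊕ Fin d) hns _ hxx W hW

end Cfsg.Agent.Lib.Helper98.T73
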