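import Cfsg.Agent.Lib.Helper38.Y5AData

set_option maxRecDepth 100000
set_option maxHeartbeats 0

namespace Cfsg.Agent.Lib.Helper38.Y5A

theorem chkV_24 : allFrom 12000 500 cert.chkV = true := by decide +kernel
theorem chkV_25 : allFrom 12500 500 cert.chkV = true := by decide +kernel
theorem chkV_26 : allFrom 13000 500 cert.chkV = true := by decide +kernel
theorem chkV_27 : allFrom 13500 500 cert.chkV = true := by decide +kernel
theorem chkV_28 : allFrom 14000 500 cert.chkV = true := by decide +kernel
theorem chkV_29 : allFrom 14500 500 cert.chkV = true := by decide +kernel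
theorem chkV_30 : allFrom 15000 500 cert.chkV = true := by decide +kernel
theorem chkV_31 : allFrom 15500 500 cert.chkV = true := by decide +kernel
theorem chkV_32 : allFrom 16000 500 cert.chkV = true := by decide +kernel
theorem chkV_33 : allFrom 16500 500 cert.chkV = true := by decide +kernel
theorem chkV_34 : allFrom 17000 500 cert.chkV = true := by decide +kernel
theorem chkV_35 : allFrom 17500 500 cert.chkV = true := by decide +kernel

end Cfsg.Agent.Lib.Helper38.Y5A
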