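import Cfsg.Agent.Lib.Helper38.Y5AData

set_option maxRecDepth 100000
set_option maxHeartbeats 0

namespace Cfsg.Agent.Lib.Helper38.Y5A

theorem chkV_36 : allFrom 18000 500 cert.chkV = true := by decide +kernel
theorem chkV_37 : allFrom 18500 500 cert.chkV = true := by decide +kernel
theorem chkV_38 : allFrom 19000 500 cert.chkV = true := by decide +kernel
theorem chkV_39 : allFrom 19500 500 cert.chkV = true := by decide +kernel
theorem chkV_40 : allFrom 20000 500 cert.chkV = true := by decide +kernel
theorem chkV_41 : allFrom 20500 500 cert.chkV = true := by decide +kernel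
theorem chkV_42 : allFrom 21000 500 cert.chkV = true := by decide +kernel
theorem chkV_43 : allFrom 21500 500 cert.chkV = true := by decide +kernel
theorem chkV_44 : allFrom 22000 500 cert.chkV = true := by decide +kernel
theorem chkV_45 : allFrom 22500 500 cert.chkV = true := by decide +kernel
theorem chkV_46 : allFrom 23000 500 cert.chkV = true := by decide +kernel
theorem chkV_47 : allFrom 23500 500 cert.chkV = true := by decide +kernel

end Cfsg.Agent.Lib.Helper38.Y5A
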