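import Mathlib

/-!
Group theory for the redundancy of the end nodes of the `Y₅₅₅` diagram: an element of a quotient
of a group `P` which centralises the image of `P` is the image of an element of a small kernel, when
`P` maps onto a simple group with a kernel of at most four elements.
-/

set_option autoImplicit false

namespace Cfsg.Agent.Lib.Helper38.Y5

/-- three distinct elements -/
theorem three_le_card {α : Type*} [Finite α] (x y z : α) (hxy : x ≠ y) (hxz : x ≠ z) (hyz : y ≠ z) :
    3 ≤ Nat.card α := by
  have hinj : Function.Injective (fun i : Fin 3 => if i = 0 then x else if i = 1 then y else z) := by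
    intro i j hij
    fin_cases i <;> fin_cases j <;> simp_all
  have h3 := Nat.card_le_card_of_injective _ hinj
  rw [Nat.card_fin] at h3
  exact h3

/-- a group with at most four elements is commutative -/
theorem comm_of_card_le_four {G : Type*} [Group G] [Finite G] (h : Nat.card G ≤ 4) (a b : G) :
    a * b = b * a := by
  have hpos : 0 < Nat.card G := Nat.card_pos
  have hc : Nat.card G = 1 ∨ Nat.card G = 2 ∨ Nat.card G = 3 ∨ Nat.card G = 4 := by omega
  rcases hc with hc | hc | hc | hc
  · have := (Nat.card_eq_one_iff_unique.mp hc).1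
    rw [Subsingleton.elim a 1, Subsingleton.elim b 1]
  · have : Fact (Nat.Prime 2) := ⟨Nat.prime_two⟩
    have : IsCyclic G := isCyclic_of_prime_card (α := G) (p := 2) hc
    exact isMulCommutative_iff.mp IsCyclic.isMulCommutative a b
  · have : Fact (Nat.Prime 3) := ⟨Nat.prime_three⟩
    have : IsCyclic G := isCyclic_of_prime_card (α := G) (p := 3) hc
    exact isMulCommutative_iff.mp IsCyclic.isMulCommutative a b
  · have : Fact (Nat.Prime 2) := ⟨Nat.prime_two⟩
    exact isMulCommutative_iff.mp (IsPGroup.isMulCommutative_of_card_eq_prime_sq (p := 2) (by rw [hc]; norm_num)) a b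

/-- two commuting involutions whose product has order dividing three are equal -/
theorem eq_of_braid_comm {G : Type*} [Group G] {x y : G} (hx : x * x = 1) (hy : y * y = 1)
    (h3 : x * y * (x * y) * (x * y) = 1) (hc : x * y = y * x) : x = y := by
  have h2 : x * y * (x * y) = 1 := by
    calc x * y * (x * y) = x * (y * x) * y := by group
      _ = x * (x * y) * y := by rw [hc]
      _ = x * x * (y * y) := by group
      _ = 1 := by rw [hx, hy, one_mul]
  rw [h2, one_mul] at h3
  have : x = y⁻¹ := eq_inv_of_mul_eq_one_left h3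
  rw [this, inv_eq_of_mul_eq_one_left hy]

variable {Y P F : Type*} [Group Y] [Group P] [Group F] [Finite P]

/-- the elements of sign `-1` in a kernel of at most four elements -/
theorem odd_ker (π : P →* F) (hK : Nat.card π.ker ≤ 4) (sP : P →* ℤˣ)
    (k z : P) (hk : π k = 1) (hz : π z = 1) (hsk : sP k = -1) (hsz : sP z = -1) (hkz : k ≠ z)
    (c : P) (hcen : π c = 1) (hsc : sP c = -1) : c = k ∨ c = z := by
  by_contra hne
  rw [not_or] at hne
  obtain ⟨hck, hcz⟩ := hne
  let σ : π.ker →* ℤˣ := sP.comp π.ker.subtype
  have h3 : 3 ≤ Nat.card σ.ker := by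
    have m1 : (⟨k⁻¹ * z, by rw [MonoidHom.mem_ker, map_mul, map_inv, hk, hz]; simp⟩ : π.ker) ∈ σ.ker := by
      rw [MonoidHom.mem_ker]
      show sP (k⁻¹ * z) = 1
      rw [map_mul, map_inv, hsk, hsz]; decide
    have m2 : (⟨k⁻¹ * c, by rw [MonoidHom.mem_ker, map_mul, map_inv, hk, hcen]; simp⟩ : π.ker) ∈ σ.ker := by
      rw [MonoidHom.mem_ker]
      show sP (k⁻¹ * c) = 1
      rw [map_mul, map_inv, hsk, hsc]; decide
    refine three_le_card (1 : σ.ker) ⟨_, m1⟩ ⟨_, m2⟩ ?_ ?_ ?_
    · intro h
      have h' := congrArg (fun x : σ.ker => ((x : π.ker) : P)) h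
      simp only [OneMemClass.coe_one] at h'
      exact hkz (by rw [← mul_one k, h', mul_inv_cancel_left])
    · intro h
      have h' := congrArg (fun x : σ.ker => ((x : π.ker) : P)) h
      simp only [OneMemClass.coe_one] at h'
      exact hck (by rw [← mul_one k, h', mul_inv_cancel_left])
    · intro h
      have h' := congrArg (fun x : σ.ker => ((x : π.ker) : P)) h
      simp only at h'
      exact hcz (mul_left_cancel h').symm
  have h2 : 2 ≤ Nat.card σ.range := by
    have hnt : Nontrivial σ.range := by
      refine ⟨⟨⟨σ ⟨k, hk⟩, ⟨_, rfl⟩⟩, 1, ?_⟩⟩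
      intro h
      have h' := congrArg (fun x : σ.range => (x : ℤˣ)) h
      simp only [OneMemClass.coe_one] at h'
      have h'' : sP k = 1 := h'
      rw [hsk] at h''
      exact absurd h'' (by decide)
    exact Finite.one_lt_card_iff_nontrivial.mpr hnt
  have h4 : Nat.card σ.ker * Nat.card σ.range = Nat.card π.ker := by
    rw [← Subgroup.index_ker, Subgroup.card_mul_index]
  have h6 : 3 * 2 ≤ Nat.card σ.ker * Nat.card σ.range := Nat.mul_le_mul h3 h2
  omega

/-- **The centraliser argument.** -/
theorem central_image (ψ : P →* Y) (π : P →* F) (hπ : Function.Surjective π)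
    (hK : Nat.card π.ker ≤ 4) (sP : P →* ℤˣ) (sY : Y →* ℤˣ) (hs : ∀ p, sY (ψ p) = sP p)
    [IsSimpleGroup F] (hF : ¬ ∀ a b : F, a * b = b * a)
    (k z : P) (hk : π k = 1) (hz : π z = 1) (hsk : sP k = -1) (hsz : sP z = -1) (hkz : k ≠ z)
    (f : Y) (hfr : f ∈ ψ.range) (hfc : ∀ p, f * ψ p = ψ p * f) (hfs : sY f = -1)
    (hD1 : f = ψ z → f = ψ k)
    (hD2 : (∀ p q : P, ψ p * ψ q = ψ q * ψ p) → f = ψ k) : f = ψ k := by
  obtain ⟨c, rfl⟩ := hfr
  have hNn : (ψ.ker.map π).Normal := Subgroup.Normal.map inferInstance π hπ
  rcases hNn.eq_bot_or_eq_top with hbot | htop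
  · -- the kernel of `ψ` lies in the kernel of `π`
    have hle : ∀ n ∈ ψ.ker, π n = 1 := by
      intro n hn
      have : π n ∈ ψ.ker.map π := Subgroup.mem_map_of_mem π hn
      rw [hbot] at this
      exact Subgroup.mem_bot.mp this
    have hcen : π c ∈ Subgroup.center F := by
      rw [Subgroup.mem_center_iff]
      intro x
      obtain ⟨p, rfl⟩ := hπ x
      have hn : c * p * c⁻¹ * p⁻¹ ∈ ψ.ker := by
        rw [MonoidHom.mem_ker, map_mul, map_mul, map_mul, map_inv, map_inv, hfc p]
        group
      have h1 := hle _ hn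
      rw [map_mul, map_mul, map_mul, map_inv, map_inv] at h1
      have h2 : π c * π p = π p * π c := by
        calc π c * π p = π c * π p * (π c)⁻¹ * (π p)⁻¹ * (π p * π c) := by group
          _ = π p * π c := by rw [h1, one_mul]
      exact h2.symm
    have hcb : Subgroup.center F = ⊥ := by
      rcases (inferInstance : (Subgroup.center F).Normal).eq_bot_or_eq_top with h | h
      · exact h
      · exfalso
        apply hF
        intro a b
        have ha : a ∈ Subgroup.center F := by rw [h]; exact Subgroup.mem_top a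
        exact (Subgroup.mem_center_iff.mp ha b).symm
    rw [hcb, Subgroup.mem_bot] at hcen
    have hsc : sP c = -1 := by rw [← hs c]; exact hfs
    -- the elements of the kernel of `π` of sign `-1`
    have hck : c = k ∨ c = z := by
      by_contra hne
      rw [not_or] at hne
      obtain ⟨hck, hcz⟩ := hne
      let σ : π.ker →* ℤˣ := sP.comp π.ker.subtype
      have h3 : 3 ≤ Nat.card σ.ker := by
        have m1 : (⟨k⁻¹ * z, by rw [MonoidHom.mem_ker, map_mul, map_inv, hk, hz]; simp⟩ : π.ker) ∈ σ.ker := by
          rw [MonoidHom.mem_ker]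
          show sP (k⁻¹ * z) = 1
          rw [map_mul, map_inv, hsk, hsz]; decide
        have m2 : (⟨k⁻¹ * c, by rw [MonoidHom.mem_ker, map_mul, map_inv, hk, hcen]; simp⟩ : π.ker) ∈ σ.ker := by
          rw [MonoidHom.mem_ker]
          show sP (k⁻¹ * c) = 1
          rw [map_mul, map_inv, hsk, hsc]; decide
        refine three_le_card (1 : σ.ker) ⟨_, m1⟩ ⟨_, m2⟩ ?_ ?_ ?_
        · intro h
          have h' := congrArg (fun x : σ.ker => ((x : π.ker) : P)) h
          simp only [OneMemClass.coe_one] at h'
          exact hkz (by rw [← mul_one k, h', mul_inv_cancel_left])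
        · intro h
          have h' := congrArg (fun x : σ.ker => ((x : π.ker) : P)) h
          simp only [OneMemClass.coe_one] at h'
          exact hck (by rw [← mul_one k, h', mul_inv_cancel_left])
        · intro h
          have h' := congrArg (fun x : σ.ker => ((x : π.ker) : P)) h
          simp only at h'
          exact hcz (mul_left_cancel h').symm
      have h2 : 2 ≤ Nat.card σ.range := by
        have hnt : Nontrivial σ.range := by
          refine ⟨⟨⟨σ ⟨k, hk⟩, ⟨_, rfl⟩⟩, 1, ?_⟩⟩
          intro h
          have h' := congrArg (fun x : σ.range => (x : ℤˣ)) h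
          simp only [OneMemClass.coe_one] at h'
          have h'' : sP k = 1 := h'
          rw [hsk] at h''
          exact absurd h'' (by decide)
        exact Finite.one_lt_card_iff_nontrivial.mpr hnt
      have h4 : Nat.card σ.ker * Nat.card σ.range = Nat.card π.ker := by
        rw [← Subgroup.index_ker, Subgroup.card_mul_index]
      have h6 : 3 * 2 ≤ Nat.card σ.ker * Nat.card σ.range := Nat.mul_le_mul h3 h2
      omega
    rcases hck with rfl | rfl
    · rfl
    · exact hD1 rfl
  · -- the image of `ψ` is the image of the kernel of `π`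
    apply hD2
    have key : ∀ p : P, ∃ q ∈ π.ker, ψ p = ψ q := by
      intro p
      have hp : π p ∈ ψ.ker.map π := by rw [htop]; exact Subgroup.mem_top _
      obtain ⟨n, hn, hnp⟩ := Subgroup.mem_map.mp hp
      refine ⟨p * n⁻¹, ?_, ?_⟩
      · rw [MonoidHom.mem_ker, map_mul, map_inv, hnp, mul_inv_cancel]
      · rw [map_mul, map_inv, MonoidHom.mem_ker.mp hn, inv_one, mul_one]
    intro p q
    obtain ⟨p', hp', ep⟩ := key p
    obtain ⟨q', hq', eq⟩ := key q
    have hc := comm_of_card_le_four hK (⟨p', hp'⟩ : π.ker) ⟨q', hq'⟩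
    have hc' : p' * q' = q' * p' := congrArg (fun x : π.ker => (x : P)) hc
    rw [ep, eq, ← map_mul, ← map_mul, hc']

end Cfsg.Agent.Lib.Helper38.Y5
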