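import Cfsg.Agent.Lib.Helper38.Y5P

/-!
The group `P` (the diagram `Y₃₃₂` with the spider relator): its projection onto `Fi₂₂`, whose
kernel has at most four elements; the sign; the two words `(b c d e f g h)⁹` and `(a b c d e f h)⁹`
are the two elements of sign `-1` of the kernel, and the second one is central.  (partly generated)
-/

set_option autoImplicit false
set_option maxRecDepth 100000
set_option maxHeartbeats 0

namespace Cfsg.Agent.Lib.Helper38.Y5

open Cfsg.Agent.Lib.Helper38 Cfsg.Agent.Lib.Helper38.Fi22P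

/-- the Fischer group `Fi₂₂` as presented -/
abbrev F22 : Type := PresentedGroup Fi22P.rels

/-- its generators -/
noncomputable abbrev γF : ℕ → F22 := fun s => PresentedGroup.of (Fi22P.gen s)

instance F22_simple : IsSimpleGroup F22 := Cfsg.Agent.S1696.result.1

theorem F22_card : Nat.card F22 = 64561751654400 := Cfsg.Agent.S1696.result.2

instance F22_finite : Finite F22 := Cfsg.Agent.S1696.fin0.1

theorem γF_sq (s : ℕ) : γF s * γF s = 1 := Cfsg.Agent.S1696.B_hP.hγ s

theorem F22_noncomm : ¬ ∀ a b : F22, a * b = b * a := by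
  intro h
  let _ : CommGroup F22 := { (inferInstance : Group F22) with mul_comm := h }
  have hp : (Nat.card F22).Prime := IsSimpleGroup.prime_card
  rw [F22_card] at hp
  norm_num at hp

/-- restricting a letter map to the first `g` letters does not change the words in these letters -/
theorem map_restrict {K : Type*} [One K] (f : ℕ → K) (g : ℕ) (w : List ℕ) (h : ∀ s ∈ w, s < g) :
    w.map (fun s => if s < g then f s else 1) = w.map f :=
  List.map_congr_left (fun s hs => if_pos (h s hs))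

/-- the image of a word under a homomorphism of a group `WP` -/
theorem lift_word {K : Type*} [Group K] (g : ℕ) (words : List (List ℕ)) (φ : WP g words →* K)
    (f : ℕ → K) (hφ : ∀ s, φ (WP.gen g words s) = f s) (w : List ℕ) :
    φ ((w.map (WP.gen g words)).prod) = (w.map f).prod := by
  rw [map_list_prod, List.map_map]
  congr 1
  exact List.map_congr_left (fun s _ => hφ s)

theorem WQ_lt : ∀ w ∈ WQ, ∀ s ∈ w, s < 9 := by decide

theorem WQ_sub : ∀ w ∈ WQ, w ∈ Fi22P.words := by decide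

theorem WQ_even : ∀ w ∈ WQ, w.length % 2 = 0 := by decide

theorem R1w_lt : ∀ s ∈ R1w, s < 9 := by decide

theorem R2w_lt : ∀ s ∈ R2w, s < 9 := by decide

/-- the projection of `P` onto `Fi₂₂` -/
noncomputable def π : P →* F22 :=
  WP.lift 9 WQ (fun s => if s < 9 then γF s else 1)
    (fun s => by
      by_cases h : s < 9
      · simp only [if_pos h]; exact γF_sq s
      · simp only [if_neg h]; exact one_mul 1)
    (fun s hs => if_neg (not_lt.mpr hs))
    (fun w hw => by
      rw [map_restrict γF 9 w (WQ_lt w hw)]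
      exact Fi22P.of_words w (WQ_sub w hw))

theorem π_gen (s : ℕ) : π (ρ s) = if s < 9 then γF s else 1 := WP.lift_gen 9 WQ _ _ _ _ s

theorem π_surj : Function.Surjective π := by
  rw [← MonoidHom.range_eq_top, eq_top_iff, ← Cfsg.Agent.S1696.B_hP.hgen, Subgroup.closure_le]
  rintro _ ⟨s, hs, rfl⟩
  have hs9 : s < 9 := hs
  exact ⟨ρ s, by rw [π_gen, if_pos hs9]⟩

theorem card_ker : Nat.card π.ker ≤ 4 := by
  have h1 : Nat.card π.ker * Nat.card F22 = Nat.card P := by
    have h := Subgroup.card_mul_index π.ker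
    rw [Subgroup.index_ker, MonoidHom.range_eq_top.mpr π_surj, Subgroup.card_top] at h
    exact h
  have h2 := finA.2
  rw [← h1, F22_card] at h2
  have h3 : Nat.card π.ker * 64561751654400 ≤ 4 * 64561751654400 := le_trans h2 (by norm_num)
  exact Nat.le_of_mul_le_mul_right h3 (by norm_num)

/-- the sign of a letter -/
def sgnf (g : ℕ) : ℕ → ℤˣ := fun s => if s < g then -1 else 1

theorem sgnf_sq (g s : ℕ) : sgnf g s * sgnf g s = 1 := by
  unfold sgnf
  split <;> decide

theorem sgnf_prod (g : ℕ) (w : List ℕ) (h : ∀ s ∈ w, s < g) :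
    (w.map (sgnf g)).prod = (-1) ^ w.length := by
  induction w with
  | nil => simp
  | cons a t ih =>
    rw [List.map_cons, List.prod_cons, List.length_cons, pow_succ',
      ih (fun s hs => h s (List.mem_cons_of_mem _ hs))]
    congr 1
    exact if_pos (h a List.mem_cons_self)

theorem sgnf_even (g : ℕ) (w : List ℕ) (h : ∀ s ∈ w, s < g) (he : w.length % 2 = 0) :
    (w.map (sgnf g)).prod = 1 := by
  rw [sgnf_prod g w h]
  exact Even.neg_one_pow (Nat.even_iff.mpr he)

theorem sgnf_odd (g : ℕ) (w : List ℕ) (h : ∀ s ∈ w, s < g) (he : w.length % 2 = 1) :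
    (w.map (sgnf g)).prod = -1 := by
  rw [sgnf_prod g w h]
  exact Odd.neg_one_pow (Nat.odd_iff.mpr he)

/-- the sign on `P` -/
noncomputable def sP : P →* ℤˣ :=
  WP.lift 9 WQ (sgnf 9) (sgnf_sq 9) (fun _ hs => if_neg (not_lt.mpr hs))
    (fun w hw => sgnf_even 9 w (WQ_lt w hw) (WQ_even w hw))

theorem sP_gen (s : ℕ) : sP (ρ s) = sgnf 9 s := WP.lift_gen 9 WQ _ _ _ _ s

/-- the element `(b c d e f g h)⁹` of `P` -/
noncomputable def kP : P := (R2w.map ρ).prod

/-- the element `(a b c d e f h)⁹` of `P` -/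
noncomputable def zP : P := (R1w.map ρ).prod

theorem π_k : π kP = 1 := by
  unfold kP
  rw [lift_word 9 WQ π _ π_gen, map_restrict γF 9 R2w R2w_lt]
  exact Fi22P.of_words R2w (by decide)

theorem π_z : π zP = 1 := by
  unfold zP
  rw [lift_word 9 WQ π _ π_gen, map_restrict γF 9 R1w R1w_lt]
  exact Fi22P.of_words R1w (by decide)

theorem sP_k : sP kP = -1 := by
  unfold kP
  rw [lift_word 9 WQ sP _ sP_gen]
  exact sgnf_odd 9 R2w R2w_lt (by decide)

theorem sP_z : sP zP = -1 := by
  unfold zP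
  rw [lift_word 9 WQ sP _ sP_gen]
  exact sgnf_odd 9 R1w R1w_lt (by decide)

theorem kP_ne_zP : kP ≠ zP := k_ne_z

/-- a generator commutes with `zP`, by the values of the table at the vertex `0` -/
theorem zP_comm_of (s wid : ℕ) (hs : s < 9) (hw : Y5PA.cert.wordL wid = s :: (R1w ++ [s]))
    (hp : Y5PA.cert.pdn wid (Y5PA.cert.wLen wid) 0 = 5384) : ρ s * zP = zP * ρ s := by
  obtain ⟨φ, hφ⟩ := A_hP.hφ
  have hρ : ρ s * ρ s = 1 := WP.gen_mul_self 9 WQ s
  have hc : ρ s * zP * ρ s = kP ∨ ρ s * zP * ρ s = zP := by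
    apply odd_ker π card_ker sP kP zP π_k π_z sP_k sP_z kP_ne_zP
    · rw [map_mul, map_mul, π_z, mul_one, ← map_mul, hρ, map_one]
    · rw [map_mul, map_mul, sP_z, sP_gen]
      unfold sgnf
      rw [if_pos hs]
      decide
  rcases hc with h | h
  · exfalso
    have e1 := Cert.phi_word A_hC φ hφ (γ := ρ) (wid := wid) (c := 0) (by rw [hp]; decide)
    have e2 := Cert.phi_word A_hC φ hφ (γ := ρ) (wid := 55) (c := 0) (by rw [A_p2]; decide)
    rw [hw, hp] at e1
    rw [A_w2, A_p2] at e2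
    have e3 : ((s :: (R1w ++ [s])).map ρ).prod = ρ s * zP * ρ s := by
      rw [List.map_cons, List.prod_cons, List.map_append, List.prod_append]
      simp [zP, mul_assoc]
    rw [e3, h] at e1
    have e4 : (5384 : ℕ) = 0 := by rw [← e1]; exact e2
    exact absurd e4 (by decide)
  · calc ρ s * zP = ρ s * zP * (ρ s * ρ s) := by rw [hρ, mul_one]
      _ = (ρ s * zP * ρ s) * ρ s := by group
      _ = zP * ρ s := by rw [h]

theorem A_cw0 : Y5PA.cert.wordL 56 = 0 :: (R1w ++ [0]) := by decide +kernel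

theorem A_cp0 : Y5PA.cert.pdn 56 (Y5PA.cert.wLen 56) 0 = 5384 := by decide +kernel

theorem A_cw1 : Y5PA.cert.wordL 57 = 1 :: (R1w ++ [1]) := by decide +kernel

theorem A_cp1 : Y5PA.cert.pdn 57 (Y5PA.cert.wLen 57) 0 = 5384 := by decide +kernel

theorem A_cw2 : Y5PA.cert.wordL 58 = 2 :: (R1w ++ [2]) := by decide +kernel

theorem A_cp2 : Y5PA.cert.pdn 58 (Y5PA.cert.wLen 58) 0 = 5384 := by decide +kernel

theorem A_cw3 : Y5PA.cert.wordL 59 = 3 :: (R1w ++ [3]) := by decide +kernel

theorem A_cp3 : Y5PA.cert.pdn 59 (Y5PA.cert.wLen 59) 0 = 5384 := by decide +kernel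

theorem A_cw4 : Y5PA.cert.wordL 60 = 4 :: (R1w ++ [4]) := by decide +kernel

theorem A_cp4 : Y5PA.cert.pdn 60 (Y5PA.cert.wLen 60) 0 = 5384 := by decide +kernel

theorem A_cw5 : Y5PA.cert.wordL 61 = 5 :: (R1w ++ [5]) := by decide +kernel

theorem A_cp5 : Y5PA.cert.pdn 61 (Y5PA.cert.wLen 61) 0 = 5384 := by decide +kernel

theorem A_cw6 : Y5PA.cert.wordL 62 = 6 :: (R1w ++ [6]) := by decide +kernel

theorem A_cp6 : Y5PA.cert.pdn 62 (Y5PA.cert.wLen 62) 0 = 5384 := by decide +kernel

theorem A_cw7 : Y5PA.cert.wordL 63 = 7 :: (R1w ++ [7]) := by decide +kernel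

theorem A_cp7 : Y5PA.cert.pdn 63 (Y5PA.cert.wLen 63) 0 = 5384 := by decide +kernel

theorem A_cw8 : Y5PA.cert.wordL 64 = 8 :: (R1w ++ [8]) := by decide +kernel

theorem A_cp8 : Y5PA.cert.pdn 64 (Y5PA.cert.wLen 64) 0 = 5384 := by decide +kernel

theorem zP_comm_gen : ∀ s < 9, ρ s * zP = zP * ρ s := by
  intro s hs
  interval_cases s
  · exact zP_comm_of 0 56 (by decide) A_cw0 A_cp0
  · exact zP_comm_of 1 57 (by decide) A_cw1 A_cp1
  · exact zP_comm_of 2 58 (by decide) A_cw2 A_cp2
  · exact zP_comm_of 3 59 (by decide) A_cw3 A_cp3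
  · exact zP_comm_of 4 60 (by decide) A_cw4 A_cp4
  · exact zP_comm_of 5 61 (by decide) A_cw5 A_cp5
  · exact zP_comm_of 6 62 (by decide) A_cw6 A_cp6
  · exact zP_comm_of 7 63 (by decide) A_cw7 A_cp7
  · exact zP_comm_of 8 64 (by decide) A_cw8 A_cp8

/-- the element `zP` is central -/
theorem zP_central (p : P) : p * zP = zP * p := by
  have h : ∀ y ∈ Subgroup.closure (ρ '' {s | s < 9}), y * zP = zP * y :=
    comm_closure (by rintro _ ⟨s, hs, rfl⟩; exact zP_comm_gen s hs)
  exact h p (by rw [WP.closure_gen]; exact Subgroup.mem_top p)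

end Cfsg.Agent.Lib.Helper38.Y5
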