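import Cfsg.Agent.Lib.Helper38.Y5Y
import Cfsg.Agent.Lib.Helper38.Y5P2
import Cfsg.Agent.Lib.Helper38.Y5AV
import Cfsg.Agent.Lib.Helper38.CosetMem

/-!
The diagram `Y₅₃₂` with the spider relator: the end node `k` of the long arm is the ninth power
`(b c d e f g h)⁹` of a Coxeter element of the sub-diagram of type `E₇`.

* `k` lies in `⟨a, …, j⟩`: a sliced coset enumeration (`Y5A`, only the fact `0·k = 0` is derived).
* `k` lies in `⟨a, …, i⟩`: `Y5Y.lean` (through the simple group `Fi₂₃`).
* `⟨a, …, i⟩` is the image of the group `P`, which maps onto `Fi₂₂` with a kernel of at most four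
  elements; `k` centralises the image and has sign `-1`: the centraliser argument of `Y5Alg.lean`.
(partly generated)
-/

set_option autoImplicit false
set_option maxRecDepth 100000
set_option maxHeartbeats 0

namespace Cfsg.Agent.Lib.Helper38.Y5

open Cfsg.Agent.Lib.Helper38

/-! ### The membership certificate -/

theorem M_words : (List.range Y5A.cert.nrel).map Y5A.cert.wordL = WY := by decide +kernel

theorem M_chkSq : Y5A.cert.chkSq = true := by decide +kernel

theorem M_step : Y5A.cert.step Y5A.cert.R 0 10 = 0 := by decide +kernel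

theorem mw67 : Y5A.cert.wordL 67 = [0] := by decide +kernel
theorem mw68 : Y5A.cert.wordL 68 = [1] := by decide +kernel
theorem mw69 : Y5A.cert.wordL 69 = [2] := by decide +kernel
theorem mw70 : Y5A.cert.wordL 70 = [3] := by decide +kernel
theorem mw71 : Y5A.cert.wordL 71 = [4] := by decide +kernel
theorem mw72 : Y5A.cert.wordL 72 = [5] := by decide +kernel
theorem mw73 : Y5A.cert.wordL 73 = [6] := by decide +kernel
theorem mw74 : Y5A.cert.wordL 74 = [7] := by decide +kernel
theorem mw75 : Y5A.cert.wordL 75 = [8] := by decide +kernel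
theorem mw76 : Y5A.cert.wordL 76 = [9] := by decide +kernel

theorem M_subw : ∀ wid, Y5A.cert.nsub ≤ wid → wid < Y5A.cert.nw →
    ∃ s < 10, Y5A.cert.wordL wid = [s] := by
  intro wid h1 h2
  have h1' : 67 ≤ wid := h1
  have h2' : wid < 77 := h2
  interval_cases wid
  · exact ⟨0, by decide, mw67⟩
  · exact ⟨1, by decide, mw68⟩
  · exact ⟨2, by decide, mw69⟩
  · exact ⟨3, by decide, mw70⟩
  · exact ⟨4, by decide, mw71⟩
  · exact ⟨5, by decide, mw72⟩
  · exact ⟨6, by decide, mw73⟩
  · exact ⟨7, by decide, mw74⟩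
  · exact ⟨8, by decide, mw75⟩
  · exact ⟨9, by decide, mw76⟩

/-- the last generator lies in the subgroup generated by `a, …, j` -/
theorem k_mem : δ 10 ∈ Subgroup.closure (δ '' {s | s < 10}) := by
  refine Cert.mem_of_step (C := Y5A.cert) (γ := δ) δ_sq ?_ ?_ M_chkSq Y5A.chkV_all 10 (by decide)
    M_step
  · intro wid hwid
    apply δ_word
    rw [← M_words]
    exact List.mem_map.mpr ⟨wid, List.mem_range.mpr hwid, rfl⟩
  · intro wid h1 h2
    obtain ⟨s, hs, e⟩ := M_subw wid h1 h2
    rw [e]
    simp only [List.map_cons, List.map_nil, List.prod_cons, List.prod_nil, mul_one]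
    exact Subgroup.subset_closure ⟨s, hs, rfl⟩

/-! ### The image of `P` -/

theorem WQ_subY : ∀ w ∈ WQ, w ∈ WY := by decide

theorem WY_lt : ∀ w ∈ WY, ∀ s ∈ w, s < 11 := by decide

theorem WY_even : ∀ w ∈ WY, w.length % 2 = 0 := by decide

theorem c10 : ∀ s < 9, [s, 10, s, 10] ∈ WY := by decide

theorem R1w_comm : ∀ s < 11, ¬ s < 9 → ∀ t ∈ R1w, [t, s, t, s] ∈ WY := by decide

/-- the homomorphism of `P` to `Ŷ` -/
noncomputable def ψ : P →* Yh :=
  WP.lift 9 WQ (fun s => if s < 9 then δ s else 1)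
    (fun s => by
      by_cases h : s < 9
      · simp only [if_pos h]; exact δ_sq s
      · simp only [if_neg h]; exact one_mul 1)
    (fun s hs => if_neg (not_lt.mpr hs))
    (fun w hw => by
      rw [map_restrict δ 9 w (WQ_lt w hw)]
      exact δ_word (WQ_subY w hw))

theorem ψ_gen (s : ℕ) : ψ (ρ s) = if s < 9 then δ s else 1 := WP.lift_gen 9 WQ _ _ _ _ s

theorem ψ_word (w : List ℕ) (h : ∀ s ∈ w, s < 9) : ψ ((w.map ρ).prod) = (w.map δ).prod := by
  rw [lift_word 9 WQ ψ _ ψ_gen, map_restrict δ 9 w h]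

theorem ψ_range : ψ.range = Subgroup.closure (δ '' {s | s < 9}) := by
  rw [MonoidHom.range_eq_map, ← WP.closure_gen 9 WQ, MonoidHom.map_closure]
  congr 1
  ext y
  constructor
  · rintro ⟨_, ⟨s, hs, rfl⟩, rfl⟩
    have hs' : s < 9 := hs
    exact ⟨s, hs, by rw [ψ_gen, if_pos hs']⟩
  · rintro ⟨s, hs, rfl⟩
    have hs' : s < 9 := hs
    exact ⟨_, ⟨s, hs, rfl⟩, by rw [ψ_gen, if_pos hs']⟩

/-- the sign on `Ŷ` -/
noncomputable def sY : Yh →* ℤˣ :=
  WP.lift 11 WY (sgnf 11) (sgnf_sq 11) (fun _ hs => if_neg (not_lt.mpr hs))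
    (fun w hw => sgnf_even 11 w (WY_lt w hw) (WY_even w hw))

theorem sY_gen (s : ℕ) : sY (δ s) = sgnf 11 s := WP.lift_gen 11 WY _ _ _ _ s

theorem sY_10 : sY (δ 10) = -1 := by
  rw [sY_gen]
  unfold sgnf
  rw [if_pos (by decide)]

theorem sY_ψ (p : P) : sY (ψ p) = sP p := by
  have h : sY.comp ψ = sP := by
    apply PresentedGroup.ext
    intro s
    show sY (ψ (ρ s)) = sP (ρ s)
    rw [ψ_gen, sP_gen]
    by_cases hs : s < 9
    · rw [if_pos hs, sY_gen]
      unfold sgnf
      rw [if_pos hs, if_pos (lt_trans hs (by decide))]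
    · rw [if_neg hs, map_one]
      unfold sgnf
      rw [if_neg hs]
  rw [← h]
  rfl

theorem zY_eq : zY = ψ zP := by
  unfold zY zP
  rw [ψ_word R1w R1w_lt]

/-- the word `(a b c d e f h)⁹` is central in `Ŷ` -/
theorem zY_central (y : Yh) : y * zY = zY * y := by
  have h : ∀ y ∈ Subgroup.closure (δ '' {s | s < 11}), y * zY = zY * y := by
    apply comm_closure
    rintro _ ⟨s, hs, rfl⟩
    have hs' : s < 11 := hs
    by_cases h9 : s < 9
    · have e : δ s = ψ (ρ s) := by rw [ψ_gen, if_pos h9]
      rw [e, zY_eq, ← map_mul, ← map_mul, zP_central]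
    · have h2 : ∀ t ∈ R1w, δ t * δ s = δ s * δ t := fun t ht => δ_comm (R1w_comm s hs' h9 t ht)
      exact (prod_comm δ (δ s) R1w h2).symm
  exact h y (by rw [WP.closure_gen]; exact Subgroup.mem_top y)

/-- the last generator lies in the subgroup generated by `a, …, i` -/
theorem k_mem9 : δ 10 ∈ Subgroup.closure (δ '' {s | s < 9}) := mem_of_central zY_central k_mem

theorem δ10_comm : ∀ s < 9, δ 10 * δ s = δ s * δ 10 := fun s hs => (δ_comm (c10 s hs)).symm

/-! ### The degenerate cases -/

theorem step_eq {s t : ℕ} (hb : [s, t, s, t, s, t] ∈ WY ∨ [t, s, t, s, t, s] ∈ WY) (hs : s < 9)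
    (ht : δ t = δ 10) : δ s = δ 10 := by
  have hc : δ s * δ t = δ t * δ s := by rw [ht]; exact (δ10_comm s hs).symm
  rcases hb with hb | hb
  · rw [← ht]; exact δ_eq hb hc
  · rw [← ht]; exact (δ_eq hb hc.symm).symm

/-- if `j = k` then all generators are equal -/
theorem collapse (h : δ 9 = δ 10) : ∀ s < 9, δ s = δ 10 := by
  have h6 : δ 6 = δ 10 := step_eq (s := 6) (t := 9) (by decide) (by decide) h
  have h5 : δ 5 = δ 10 := step_eq (s := 5) (t := 6) (by decide) (by decide) h6
  have h4 : δ 4 = δ 10 := step_eq (s := 4) (t := 5) (by decide) (by decide) h5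
  have h3 : δ 3 = δ 10 := step_eq (s := 3) (t := 4) (by decide) (by decide) h4
  have h2 : δ 2 = δ 10 := step_eq (s := 2) (t := 3) (by decide) (by decide) h3
  have h1 : δ 1 = δ 10 := step_eq (s := 1) (t := 2) (by decide) (by decide) h2
  have h0 : δ 0 = δ 10 := step_eq (s := 0) (t := 1) (by decide) (by decide) h1
  have h7 : δ 7 = δ 10 := step_eq (s := 7) (t := 3) (by decide) (by decide) h3
  have h8 : δ 8 = δ 10 := step_eq (s := 8) (t := 7) (by decide) (by decide) h7
  intro s hs
  interval_cases s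
  · exact h0
  · exact h1
  · exact h2
  · exact h3
  · exact h4
  · exact h5
  · exact h6
  · exact h7
  · exact h8

theorem prod_const {G : Type*} [Group G] (γ : ℕ → G) (e : G) (w : List ℕ)
    (h : ∀ s ∈ w, γ s = e) : (w.map γ).prod = e ^ w.length := by
  induction w with
  | nil => simp
  | cons a t ih =>
    rw [List.map_cons, List.prod_cons, List.length_cons, pow_succ',
      ih (fun s hs => h s (List.mem_cons_of_mem _ hs)), h a List.mem_cons_self]

theorem pow63 {G : Type*} [Group G] (e : G) (h : e * e = 1) : e ^ 63 = e := by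
  have h2 : e ^ 2 = 1 := by rw [pow_two]; exact h
  calc e ^ 63 = (e ^ 2) ^ 31 * e := by rw [← pow_mul, ← pow_succ]
    _ = e := by rw [h2, one_pow, one_mul]

theorem R2_const (e : Yh) (he : e * e = 1) (h : ∀ s < 9, δ s = e) : (R2w.map δ).prod = e := by
  rw [prod_const δ e R2w (fun s hs => h s (R2w_lt s hs))]
  have hl : R2w.length = 63 := by decide
  rw [hl]
  exact pow63 e he

/-- the case of a commutative image of `P` -/
theorem comm_case (hfr : δ 10 ∈ Subgroup.closure (δ '' {s | s < 9}))
    (hcomm : ∀ p q : P, ψ p * ψ q = ψ q * ψ p) : δ 10 = (R2w.map δ).prod := by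
  have c : ∀ s < 9, ∀ t < 9, δ s * δ t = δ t * δ s := by
    intro s hs t ht
    have h := hcomm (ρ s) (ρ t)
    rw [ψ_gen, ψ_gen, if_pos hs, if_pos ht] at h
    exact h
  have e5 : δ 5 = δ 6 := δ_eq (by decide) (c 5 (by decide) 6 (by decide))
  have e4 : δ 4 = δ 6 := by rw [← e5]; exact δ_eq (by decide) (c 4 (by decide) 5 (by decide))
  have e3 : δ 3 = δ 6 := by rw [← e4]; exact δ_eq (by decide) (c 3 (by decide) 4 (by decide))
  have e2 : δ 2 = δ 6 := by rw [← e3]; exact δ_eq (by decide) (c 2 (by decide) 3 (by decide))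
  have e1 : δ 1 = δ 6 := by rw [← e2]; exact δ_eq (by decide) (c 1 (by decide) 2 (by decide))
  have e0 : δ 0 = δ 6 := by rw [← e1]; exact δ_eq (by decide) (c 0 (by decide) 1 (by decide))
  have e7 : δ 7 = δ 6 := by
    rw [← e3]; exact (δ_eq (by decide) (c 3 (by decide) 7 (by decide))).symm
  have e8 : δ 8 = δ 6 := by
    rw [← e7]; exact (δ_eq (by decide) (c 7 (by decide) 8 (by decide))).symm
  have hall : ∀ s < 9, δ s = δ 6 := by
    intro s hs
    interval_cases s
    · exact e0
    · exact e1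
    · exact e2
    · exact e3
    · exact e4
    · exact e5
    · rfl
    · exact e7
    · exact e8
  have hcl : ∀ y ∈ Subgroup.closure (δ '' {s | s < 9}), y = 1 ∨ y = δ 6 := by
    intro y hy
    induction hy using Subgroup.closure_induction with
    | mem x hx =>
      obtain ⟨s, hs, rfl⟩ := hx
      exact Or.inr (hall s hs)
    | one => exact Or.inl rfl
    | mul a b _ _ ha hb =>
      rcases ha with rfl | rfl <;> rcases hb with rfl | rfl
      · left; rw [one_mul]
      · right; rw [one_mul]
      · right; rw [mul_one]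
      · left; exact δ_sq 6
    | inv a _ ha =>
      rcases ha with rfl | rfl
      · left; rw [inv_one]
      · right; exact δ_inv 6
  rw [R2_const (δ 6) (δ_sq 6) hall]
  rcases hcl _ hfr with h1 | h1
  · exfalso
    have hs := sY_10
    rw [h1, map_one] at hs
    exact absurd hs (by decide)
  · exact h1

/-! ### The theorem -/

/-- **In `Ŷ` the end node `k` is the word `(b c d e f g h)⁹`.** -/
theorem main : δ 10 = (R2w.map δ).prod := by
  have hfr : δ 10 ∈ ψ.range := by rw [ψ_range]; exact k_mem9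
  have hfc : ∀ p, δ 10 * ψ p = ψ p * δ 10 := by
    intro p
    have h : ∀ y ∈ Subgroup.closure (δ '' {s | s < 9}), y * δ 10 = δ 10 * y :=
      comm_closure (by rintro _ ⟨s, hs, rfl⟩; exact (δ10_comm s hs).symm)
    exact (h (ψ p) (by rw [← ψ_range]; exact ⟨p, rfl⟩)).symm
  have h := central_image ψ π π_surj card_ker sP sY sY_ψ F22_noncomm kP zP π_k π_z sP_k sP_z
    kP_ne_zP (δ 10) hfr hfc sY_10 ?_ ?_
  · rw [h]
    unfold kP
    exact ψ_word R2w R2w_lt
  · intro hz
    rw [← zY_eq] at hz
    have hc9 : δ 9 * δ 10 = δ 10 * δ 9 := by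
      rw [hz]
      exact zY_central (δ 9)
    have hall := collapse (δ_eq (by decide) hc9)
    unfold kP
    rw [ψ_word R2w R2w_lt]
    exact (R2_const (δ 10) (δ_sq 10) hall).symm
  · intro hcomm
    unfold kP
    rw [ψ_word R2w R2w_lt]
    exact comm_case k_mem9 hcomm

/-- **The base theorem**: eleven involutions forming the diagram `Y₅₃₂` and satisfying the spider
relator; the end node of the long arm is the ninth power of a Coxeter element of type `E₇`. -/
theorem base {K : Type*} [Group K] (d : ℕ → K) (h2 : ∀ s, d s * d s = 1)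
    (hw : ∀ w ∈ WY, (w.map d).prod = 1) : d 10 = (R2w.map d).prod := by
  let φ : Yh →* K := WP.lift 11 WY (fun s => if s < 11 then d s else 1)
    (fun s => by
      by_cases h : s < 11
      · simp only [if_pos h]; exact h2 s
      · simp only [if_neg h]; exact one_mul 1)
    (fun s hs => if_neg (not_lt.mpr hs))
    (fun w hw' => by
      rw [map_restrict d 11 w (WY_lt w hw')]
      exact hw w hw')
  have hφ : ∀ s, φ (δ s) = if s < 11 then d s else 1 := fun s => WP.lift_gen 11 WY _ _ _ _ s
  have h := congrArg φ main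
  rw [hφ 10, if_pos (by decide), lift_word 11 WY φ _ hφ,
    map_restrict d 11 R2w (fun s hs => lt_trans (R2w_lt s hs) (by decide))] at h
  exact h

end Cfsg.Agent.Lib.Helper38.Y5
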