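import Cfsg.Agent.Lib.Helper38.Y5PBData

set_option maxRecDepth 100000
set_option maxHeartbeats 0

namespace Cfsg.Agent.Lib.Helper38.Y5PB

theorem chkN_12 : allFrom 3000 159 cert.chkN = true := by decide +kernel

end Cfsg.Agent.Lib.Helper38.Y5PB
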