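import Cfsg.Agent.Lib.Helper38.Y5PBN0
import Cfsg.Agent.Lib.Helper38.Y5PBN1

set_option maxRecDepth 100000
set_option maxHeartbeats 0

namespace Cfsg.Agent.Lib.Helper38.Y5PB

theorem chkN_all : ∀ v < 3159, cert.chkN v = true := by
  intro v hv
  by_cases h0 : v < 250
  · exact allFrom_iff.mp chkN_0 v (by omega) (by omega)
  by_cases h1 : v < 500
  · exact allFrom_iff.mp chkN_1 v (by omega) (by omega)
  by_cases h2 : v < 750
  · exact allFrom_iff.mp chkN_2 v (by omega) (by omega)
  by_cases h3 : v < 1000
  · exact allFrom_iff.mp chkN_3 v (by omega) (by omega)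
  by_cases h4 : v < 1250
  · exact allFrom_iff.mp chkN_4 v (by omega) (by omega)
  by_cases h5 : v < 1500
  · exact allFrom_iff.mp chkN_5 v (by omega) (by omega)
  by_cases h6 : v < 1750
  · exact allFrom_iff.mp chkN_6 v (by omega) (by omega)
  by_cases h7 : v < 2000
  · exact allFrom_iff.mp chkN_7 v (by omega) (by omega)
  by_cases h8 : v < 2250
  · exact allFrom_iff.mp chkN_8 v (by omega) (by omega)
  by_cases h9 : v < 2500
  · exact allFrom_iff.mp chkN_9 v (by omega) (by omega)
  by_cases h10 : v < 2750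
  · exact allFrom_iff.mp chkN_10 v (by omega) (by omega)
  by_cases h11 : v < 3000
  · exact allFrom_iff.mp chkN_11 v (by omega) (by omega)
  exact allFrom_iff.mp chkN_12 v (by omega) (by omega)

end Cfsg.Agent.Lib.Helper38.Y5PB
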