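import Mathlib

/-!
Words for the diagram `Y₅₃₂` with the spider relator, in the letters `a, …, i = 0, …, 8` of the
Fischer group `Fi₂₂` (edges `ab, bc, cd, de, dh, ef, fg, hi`), with two more letters `j = 9`
(joined to `g`) and `k = 10` (joined to `j`).  The hub is `d = 3`; the arms are `c, b, a`
(`2, 1, 0`), `e, f, g, j, k` (`4, 5, 6, 9, 10`) and `h, i` (`7, 8`).  (generated)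
-/

set_option autoImplicit false

namespace Cfsg.Agent.Lib.Helper38.Y5

/-- the relator words of `Y₅₃₂` with the spider relator: `[s, t, s, t, s, t]` for the ten edges,
`[s, t, s, t]` for the other pairs `s < t < 11`, and the spider word `(d c b d e f d h i)¹⁰` -/
def WY : List (List ℕ) := [
  [0, 1, 0, 1, 0, 1],
  [0, 2, 0, 2],
  [0, 3, 0, 3],
  [0, 4, 0, 4],
  [0, 5, 0, 5],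
  [0, 6, 0, 6],
  [0, 7, 0, 7],
  [0, 8, 0, 8],
  [0, 9, 0, 9],
  [0, 10, 0, 10],
  [1, 2, 1, 2, 1, 2],
  [1, 3, 1, 3],
  [1, 4, 1, 4],
  [1, 5, 1, 5],
  [1, 6, 1, 6],
  [1, 7, 1, 7],
  [1, 8, 1, 8],
  [1, 9, 1, 9],
  [1, 10, 1, 10],
  [2, 3, 2, 3, 2, 3],
  [2, 4, 2, 4],
  [2, 5, 2, 5],
  [2, 6, 2, 6],
  [2, 7, 2, 7],
  [2, 8, 2, 8],
  [2, 9, 2, 9],
  [2, 10, 2, 10],
  [3, 4, 3, 4, 3, 4],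
  [3, 5, 3, 5],
  [3, 6, 3, 6],
  [3, 7, 3, 7, 3, 7],
  [3, 8, 3, 8],
  [3, 9, 3, 9],
  [3, 10, 3, 10],
  [4, 5, 4, 5, 4, 5],
  [4, 6, 4, 6],
  [4, 7, 4, 7],
  [4, 8, 4, 8],
  [4, 9, 4, 9],
  [4, 10, 4, 10],
  [5, 6, 5, 6, 5, 6],
  [5, 7, 5, 7],
  [5, 8, 5, 8],
  [5, 9, 5, 9],
  [5, 10, 5, 10],
  [6, 7, 6, 7],
  [6, 8, 6, 8],
  [6, 9, 6, 9, 6, 9],
  [6, 10, 6, 10],
  [7, 8, 7, 8, 7, 8],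
  [7, 9, 7, 9],
  [7, 10, 7, 10],
  [8, 9, 8, 9],
  [8, 10, 8, 10],
  [9, 10, 9, 10, 9, 10],
  [3, 2, 1, 3, 4, 5, 3, 7, 8, 3, 2, 1, 3, 4, 5, 3, 7, 8, 3, 2, 1, 3, 4, 5, 3, 7, 8, 3, 2, 1, 3, 4, 5, 3, 7, 8, 3, 2, 1, 3, 4, 5, 3, 7, 8, 3, 2, 1, 3, 4, 5, 3, 7, 8, 3, 2, 1, 3, 4, 5, 3, 7, 8, 3, 2, 1, 3, 4, 5, 3, 7, 8, 3, 2, 1, 3, 4, 5, 3, 7, 8, 3, 2, 1, 3, 4, 5, 3, 7, 8]]

/-- the word `(a b c d e f h)⁹` -/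
def R1w : List ℕ := [0, 1, 2, 3, 4, 5, 7, 0, 1, 2, 3, 4, 5, 7, 0, 1, 2, 3, 4, 5, 7, 0, 1, 2, 3, 4, 5, 7, 0, 1, 2, 3, 4, 5, 7, 0, 1, 2, 3, 4, 5, 7, 0, 1, 2, 3, 4, 5, 7, 0, 1, 2, 3, 4, 5, 7, 0, 1, 2, 3, 4, 5, 7]

/-- the word `(b c d e f g h)⁹` -/
def R2w : List ℕ := [1, 2, 3, 4, 5, 6, 7, 1, 2, 3, 4, 5, 6, 7, 1, 2, 3, 4, 5, 6, 7, 1, 2, 3, 4, 5, 6, 7, 1, 2, 3, 4, 5, 6, 7, 1, 2, 3, 4, 5, 6, 7, 1, 2, 3, 4, 5, 6, 7, 1, 2, 3, 4, 5, 6, 7, 1, 2, 3, 4, 5, 6, 7]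

end Cfsg.Agent.Lib.Helper38.Y5
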