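import Cfsg.Agent.S1696
import Cfsg.Agent.Lib.Helper38.Y5Alg
import Cfsg.Agent.Lib.Helper38.Y5Words
import Cfsg.Agent.Lib.Helper38.Y5PAV
import Cfsg.Agent.Lib.Helper38.Y5PAN
import Cfsg.Agent.Lib.Helper38.Y5PBV
import Cfsg.Agent.Lib.Helper38.Y5PBN
import Cfsg.Agent.Lib.Helper38.Y5PCV
import Cfsg.Agent.Lib.Helper38.Y5PCN

/-!
The group `P` presented by the Coxeter relators of the diagram `Y₃₃₂` and the spider relator, in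
the letters `a, …, i = 0, …, 8` of the Fischer group `Fi₂₂`: it has at most four times the order
of `Fi₂₂`, which is its quotient by the two further relators of `Fi₂₂` (generated).
-/

set_option autoImplicit false
set_option maxRecDepth 100000
set_option maxHeartbeats 0

namespace Cfsg.Agent.Lib.Helper38.Y5

open Cfsg.Agent.Lib.Helper38 Cfsg.Agent.Lib.Helper38.Fi22P

/-- the relator words of `P` -/
def WQ : List (List ℕ) := [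
  [0, 1, 0, 1, 0, 1],
  [0, 2, 0, 2],
  [0, 3, 0, 3],
  [0, 4, 0, 4],
  [0, 5, 0, 5],
  [0, 6, 0, 6],
  [0, 7, 0, 7],
  [0, 8, 0, 8],
  [1, 2, 1, 2, 1, 2],
  [1, 3, 1, 3],
  [1, 4, 1, 4],
  [1, 5, 1, 5],
  [1, 6, 1, 6],
  [1, 7, 1, 7],
  [1, 8, 1, 8],
  [2, 3, 2, 3, 2, 3],
  [2, 4, 2, 4],
  [2, 5, 2, 5],
  [2, 6, 2, 6],
  [2, 7, 2, 7],
  [2, 8, 2, 8],
  [3, 4, 3, 4, 3, 4],
  [3, 5, 3, 5],
  [3, 6, 3, 6],
  [3, 7, 3, 7, 3, 7],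
  [3, 8, 3, 8],
  [4, 5, 4, 5, 4, 5],
  [4, 6, 4, 6],
  [4, 7, 4, 7],
  [4, 8, 4, 8],
  [5, 6, 5, 6, 5, 6],
  [5, 7, 5, 7],
  [5, 8, 5, 8],
  [6, 7, 6, 7],
  [6, 8, 6, 8],
  [7, 8, 7, 8, 7, 8],
  [3, 2, 1, 3, 4, 5, 3, 7, 8, 3, 2, 1, 3, 4, 5, 3, 7, 8, 3, 2, 1, 3, 4, 5, 3, 7, 8, 3, 2, 1, 3, 4, 5, 3, 7, 8, 3, 2, 1, 3, 4, 5, 3, 7, 8, 3, 2, 1, 3, 4, 5, 3, 7, 8, 3, 2, 1, 3, 4, 5, 3, 7, 8, 3, 2, 1, 3, 4, 5, 3, 7, 8, 3, 2, 1, 3, 4, 5, 3, 7, 8, 3, 2, 1, 3, 4, 5, 3, 7, 8]]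

/-- the relator words on the letters `b, …, i` -/
def WQ1 : List (List ℕ) := [
  [1, 2, 1, 2, 1, 2],
  [1, 3, 1, 3],
  [1, 4, 1, 4],
  [1, 5, 1, 5],
  [1, 6, 1, 6],
  [1, 7, 1, 7],
  [1, 8, 1, 8],
  [2, 3, 2, 3, 2, 3],
  [2, 4, 2, 4],
  [2, 5, 2, 5],
  [2, 6, 2, 6],
  [2, 7, 2, 7],
  [2, 8, 2, 8],
  [3, 4, 3, 4, 3, 4],
  [3, 5, 3, 5],
  [3, 6, 3, 6],
  [3, 7, 3, 7, 3, 7],
  [3, 8, 3, 8],
  [4, 5, 4, 5, 4, 5],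
  [4, 6, 4, 6],
  [4, 7, 4, 7],
  [4, 8, 4, 8],
  [5, 6, 5, 6, 5, 6],
  [5, 7, 5, 7],
  [5, 8, 5, 8],
  [6, 7, 6, 7],
  [6, 8, 6, 8],
  [7, 8, 7, 8, 7, 8],
  [3, 2, 1, 3, 4, 5, 3, 7, 8, 3, 2, 1, 3, 4, 5, 3, 7, 8, 3, 2, 1, 3, 4, 5, 3, 7, 8, 3, 2, 1, 3, 4, 5, 3, 7, 8, 3, 2, 1, 3, 4, 5, 3, 7, 8, 3, 2, 1, 3, 4, 5, 3, 7, 8, 3, 2, 1, 3, 4, 5, 3, 7, 8, 3, 2, 1, 3, 4, 5, 3, 7, 8, 3, 2, 1, 3, 4, 5, 3, 7, 8, 3, 2, 1, 3, 4, 5, 3, 7, 8],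
  [0]]

/-- the relator words on the letters `b, …, h` -/
def WQ2 : List (List ℕ) := [
  [1, 2, 1, 2, 1, 2],
  [1, 3, 1, 3],
  [1, 4, 1, 4],
  [1, 5, 1, 5],
  [1, 6, 1, 6],
  [1, 7, 1, 7],
  [2, 3, 2, 3, 2, 3],
  [2, 4, 2, 4],
  [2, 5, 2, 5],
  [2, 6, 2, 6],
  [2, 7, 2, 7],
  [3, 4, 3, 4, 3, 4],
  [3, 5, 3, 5],
  [3, 6, 3, 6],
  [3, 7, 3, 7, 3, 7],
  [4, 5, 4, 5, 4, 5],
  [4, 6, 4, 6],
  [4, 7, 4, 7],
  [5, 6, 5, 6, 5, 6],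
  [5, 7, 5, 7],
  [6, 7, 6, 7],
  [0],
  [8]]

/-- the group `P` -/
abbrev P : Type := WP 9 WQ

/-- its generators -/
noncomputable abbrev ρ : ℕ → P := WP.gen 9 WQ

theorem A_chkG : Y5PA.cert.chkG = true := by decide +kernel

theorem A_words : (List.range Y5PA.cert.nrel).map Y5PA.cert.wordL = WQ := by decide +kernel

theorem A_hP : Cert.Pres Y5PA.cert ρ (Y5PA.cert.subgp ρ) :=
  WP.pres Y5PA.cert WQ A_words Y5PA.chkN_all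

theorem A_hC : Cert.Checks Y5PA.cert := ⟨Y5PA.chkV_all, Y5PA.chkN_all, A_chkG⟩

theorem B_chkG : Y5PB.cert.chkG = true := by decide +kernel

theorem B_words : (List.range Y5PB.cert.nrel).map Y5PB.cert.wordL = WQ1 := by decide +kernel

theorem B_hP : Cert.Pres Y5PB.cert (WP.gen 9 WQ1) (Y5PB.cert.subgp (WP.gen 9 WQ1)) :=
  WP.pres Y5PB.cert WQ1 B_words Y5PB.chkN_all

theorem B_hC : Cert.Checks Y5PB.cert := ⟨Y5PB.chkV_all, Y5PB.chkN_all, B_chkG⟩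

theorem C_chkG : Y5PC.cert.chkG = true := by decide +kernel

theorem C_words : (List.range Y5PC.cert.nrel).map Y5PC.cert.wordL = WQ2 := by decide +kernel

theorem C_hP : Cert.Pres Y5PC.cert (WP.gen 9 WQ2) (Y5PC.cert.subgp (WP.gen 9 WQ2)) :=
  WP.pres Y5PC.cert WQ2 C_words Y5PC.chkN_all

theorem C_hC : Cert.Checks Y5PC.cert := ⟨Y5PC.chkV_all, Y5PC.chkN_all, C_chkG⟩

theorem finC : Finite (WP 9 WQ2) ∧ Nat.card (WP 9 WQ2) ≤ 56 * (27 * (1920)) := by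
  have := Cfsg.Agent.S1696.fin3.1
  have h := ub_step C_hP C_hC WQ2 (fun w hw => WP.gen_word 9 WQ2 hw) 9 Cfsg.Agent.S1696.W3
    (actL [1, 2, 3, 4, 5, 7]) (actL_ge _ 9 (by decide)) (by decide +kernel)
    (Cert.hsub_of (by decide +kernel))
  exact ⟨h.1, h.2.trans (Nat.mul_le_mul_left _ Cfsg.Agent.S1696.fin3.2)⟩

theorem finB : Finite (WP 9 WQ1) ∧ Nat.card (WP 9 WQ1) ≤ 3159 * (56 * (27 * (1920))) := by
  have := finC.1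
  have h := ub_step B_hP B_hC WQ1 (fun w hw => WP.gen_word 9 WQ1 hw) 9 WQ2
    (actL [1, 2, 3, 4, 5, 6, 7]) (actL_ge _ 9 (by decide)) (by decide +kernel)
    (Cert.hsub_of (by decide +kernel))
  exact ⟨h.1, h.2.trans (Nat.mul_le_mul_left _ finC.2)⟩

theorem finA : Finite P ∧ Nat.card P ≤ 28160 * (3159 * (56 * (27 * (1920)))) := by
  have := finB.1
  have h := ub_step A_hP A_hC WQ (fun w hw => WP.gen_word 9 WQ hw) 9 WQ1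
    (actL [1, 2, 3, 4, 5, 6, 7, 8]) (actL_ge _ 9 (by decide)) (by decide +kernel)
    (Cert.hsub_of (by decide +kernel))
  exact ⟨h.1, h.2.trans (Nat.mul_le_mul_left _ finB.2)⟩

instance finP : Finite P := finA.1

theorem A_w1 : Y5PA.cert.wordL 54 = R1w := by decide +kernel

theorem A_w2 : Y5PA.cert.wordL 55 = R2w := by decide +kernel

theorem A_p1 : Y5PA.cert.pdn 54 (Y5PA.cert.wLen 54) 0 = 5384 := by decide +kernel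

theorem A_p2 : Y5PA.cert.pdn 55 (Y5PA.cert.wLen 55) 0 = 0 := by decide +kernel

/-- the two central words are different elements of `P` -/
theorem k_ne_z : (R2w.map ρ).prod ≠ (R1w.map ρ).prod := by
  obtain ⟨φ, hφ⟩ := A_hP.hφ
  intro h
  have e1 := Cert.phi_word A_hC φ hφ (γ := ρ) (wid := 54) (c := 0) (by rw [A_p1]; decide)
  have e2 := Cert.phi_word A_hC φ hφ (γ := ρ) (wid := 55) (c := 0) (by rw [A_p2]; decide)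
  rw [A_w1, A_p1] at e1
  rw [A_w2, A_p2, h, e1] at e2
  exact absurd e2 (by decide)

end Cfsg.Agent.Lib.Helper38.Y5
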