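import Cfsg.Agent.Lib.Helper38.Y5PAData

set_option maxRecDepth 100000
set_option maxHeartbeats 0

namespace Cfsg.Agent.Lib.Helper38.Y5PA

theorem chkN_12 : allFrom 3000 250 cert.chkN = true := by decide +kernel
theorem chkN_13 : allFrom 3250 250 cert.chkN = true := by decide +kernel
theorem chkN_14 : allFrom 3500 250 cert.chkN = true := by decide +kernel
theorem chkN_15 : allFrom 3750 250 cert.chkN = true := by decide +kernel
theorem chkN_16 : allFrom 4000 250 cert.chkN = true := by decide +kernel
theorem chkN_17 : allFrom 4250 250 cert.chkN = true := by decide +kernel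
theorem chkN_18 : allFrom 4500 250 cert.chkN = true := by decide +kernel
theorem chkN_19 : allFrom 4750 250 cert.chkN = true := by decide +kernel
theorem chkN_20 : allFrom 5000 250 cert.chkN = true := by decide +kernel
theorem chkN_21 : allFrom 5250 250 cert.chkN = true := by decide +kernel
theorem chkN_22 : allFrom 5500 250 cert.chkN = true := by decide +kernel
theorem chkN_23 : allFrom 5750 250 cert.chkN = true := by decide +kernel

end Cfsg.Agent.Lib.Helper38.Y5PA
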