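import Cfsg.Agent.Lib.Helper38.Y5PAData

set_option maxRecDepth 100000
set_option maxHeartbeats 0

namespace Cfsg.Agent.Lib.Helper38.Y5PA

theorem chkN_96 : allFrom 24000 250 cert.chkN = true := by decide +kernel
theorem chkN_97 : allFrom 24250 250 cert.chkN = true := by decide +kernel
theorem chkN_98 : allFrom 24500 250 cert.chkN = true := by decide +kernel
theorem chkN_99 : allFrom 24750 250 cert.chkN = true := by decide +kernel
theorem chkN_100 : allFrom 25000 250 cert.chkN = true := by decide +kernel
theorem chkN_101 : allFrom 25250 250 cert.chkN = true := by decide +kernel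
theorem chkN_102 : allFrom 25500 250 cert.chkN = true := by decide +kernel
theorem chkN_103 : allFrom 25750 250 cert.chkN = true := by decide +kernel
theorem chkN_104 : allFrom 26000 250 cert.chkN = true := by decide +kernel
theorem chkN_105 : allFrom 26250 250 cert.chkN = true := by decide +kernel
theorem chkN_106 : allFrom 26500 250 cert.chkN = true := by decide +kernel
theorem chkN_107 : allFrom 26750 250 cert.chkN = true := by decide +kernel

end Cfsg.Agent.Lib.Helper38.Y5PA
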