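import Cfsg.Agent.Lib.Helper38.Y5PAData

set_option maxRecDepth 100000
set_option maxHeartbeats 0

namespace Cfsg.Agent.Lib.Helper38.Y5PA

theorem chkV_132 : allFrom 66000 500 cert.chkV = true := by decide +kernel
theorem chkV_133 : allFrom 66500 500 cert.chkV = true := by decide +kernel
theorem chkV_134 : allFrom 67000 500 cert.chkV = true := by decide +kernel
theorem chkV_135 : allFrom 67500 500 cert.chkV = true := by decide +kernel
theorem chkV_136 : allFrom 68000 500 cert.chkV = true := by decide +kernel
theorem chkV_137 : allFrom 68500 500 cert.chkV = true := by decide +kernel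
theorem chkV_138 : allFrom 69000 500 cert.chkV = true := by decide +kernel
theorem chkV_139 : allFrom 69500 500 cert.chkV = true := by decide +kernel
theorem chkV_140 : allFrom 70000 500 cert.chkV = true := by decide +kernel
theorem chkV_141 : allFrom 70500 500 cert.chkV = true := by decide +kernel
theorem chkV_142 : allFrom 71000 500 cert.chkV = true := by decide +kernel
theorem chkV_143 : allFrom 71500 500 cert.chkV = true := by decide +kernel

end Cfsg.Agent.Lib.Helper38.Y5PA
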