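import Cfsg.Agent.Lib.Helper38.Y5PAData

set_option maxRecDepth 100000
set_option maxHeartbeats 0

namespace Cfsg.Agent.Lib.Helper38.Y5PA

theorem chkV_108 : allFrom 54000 500 cert.chkV = true := by decide +kernel
theorem chkV_109 : allFrom 54500 500 cert.chkV = true := by decide +kernel
theorem chkV_110 : allFrom 55000 500 cert.chkV = true := by decide +kernel
theorem chkV_111 : allFrom 55500 500 cert.chkV = true := by decide +kernel
theorem chkV_112 : allFrom 56000 500 cert.chkV = true := by decide +kernel
theorem chkV_113 : allFrom 56500 500 cert.chkV = true := by decide +kernel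
theorem chkV_114 : allFrom 57000 500 cert.chkV = true := by decide +kernel
theorem chkV_115 : allFrom 57500 500 cert.chkV = true := by decide +kernel
theorem chkV_116 : allFrom 58000 500 cert.chkV = true := by decide +kernel
theorem chkV_117 : allFrom 58500 500 cert.chkV = true := by decide +kernel
theorem chkV_118 : allFrom 59000 500 cert.chkV = true := by decide +kernel
theorem chkV_119 : allFrom 59500 500 cert.chkV = true := by decide +kernel

end Cfsg.Agent.Lib.Helper38.Y5PA
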