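import Cfsg.Agent.S1697
import Cfsg.Agent.Lib.Helper38.Y5Alg
import Cfsg.Agent.Lib.Helper38.Y5Words

/-!
The group `Ŷ` presented by eleven involutions forming the diagram `Y₅₃₂` and the spider relator.
If the word `(a b c d e f h)⁹` is central and the last generator `k` lies in the subgroup generated
by `a, …, j`, then `k` lies in the subgroup generated by `a, …, i`: modulo the central word, the
subgroup `⟨a, …, j⟩` is a quotient of the presented group `Fi₂₃`, which is simple, and in which
`⟨a, …, i⟩` is a maximal subgroup, not normal; an element centralising it lies in it.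
-/

set_option autoImplicit false
set_option maxRecDepth 100000
set_option maxHeartbeats 0

namespace Cfsg.Agent.Lib.Helper38.Y5

open Cfsg.Agent.Lib.Helper38

/-- the group `Ŷ` -/
abbrev Yh : Type := WP 11 WY

/-- its generators -/
noncomputable abbrev δ : ℕ → Yh := WP.gen 11 WY

theorem δ_sq (s : ℕ) : δ s * δ s = 1 := WP.gen_mul_self 11 WY s

theorem δ_inv (s : ℕ) : (δ s)⁻¹ = δ s := inv_eq_of_mul_eq_one_left (δ_sq s)

theorem δ_word {w : List ℕ} (hw : w ∈ WY) : (w.map δ).prod = 1 := WP.gen_word 11 WY hw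

theorem δ_comm {s t : ℕ} (h : [s, t, s, t] ∈ WY) : δ s * δ t = δ t * δ s := by
  have h1 := δ_word h
  simp only [List.map_cons, List.map_nil, List.prod_cons, List.prod_nil, mul_one] at h1
  have h2 : δ s * δ t = (δ s * δ t)⁻¹ := eq_inv_of_mul_eq_one_left (by rw [mul_assoc]; exact h1)
  calc δ s * δ t = (δ s * δ t)⁻¹ := h2
    _ = δ t * δ s := by rw [mul_inv_rev, δ_inv, δ_inv]

theorem δ_braid {s t : ℕ} (h : [s, t, s, t, s, t] ∈ WY) :
    δ s * δ t * (δ s * δ t) * (δ s * δ t) = 1 := by
  have h1 := δ_word h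
  simp only [List.map_cons, List.map_nil, List.prod_cons, List.prod_nil, mul_one] at h1
  rw [← h1]
  simp only [mul_assoc]

/-- two generators which are joined and commute are equal -/
theorem δ_eq {s t : ℕ} (hb : [s, t, s, t, s, t] ∈ WY) (hc : δ s * δ t = δ t * δ s) : δ s = δ t :=
  eq_of_braid_comm (δ_sq s) (δ_sq t) (δ_braid hb) hc

/-- a word commutes with an element which commutes with its letters -/
theorem prod_comm {G : Type*} [Group G] (γ : ℕ → G) (x : G) (w : List ℕ)
    (h : ∀ s ∈ w, γ s * x = x * γ s) : (w.map γ).prod * x = x * (w.map γ).prod := by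
  induction w with
  | nil => simp
  | cons a t ih =>
    rw [List.map_cons, List.prod_cons, mul_assoc, ih (fun s hs => h s (List.mem_cons_of_mem _ hs)),
      ← mul_assoc, h a List.mem_cons_self, mul_assoc]

/-- the word `(a b c d e f h)⁹` in `Ŷ` -/
noncomputable def zY : Yh := (R1w.map δ).prod

/-- the letters of `Fi₂₃` (`a, b, c, d, e, f, g, j, h, i`) as letters of `Ŷ` -/
def τ23 : ℕ → ℕ := fun s => if s = 7 then 9 else if s = 8 then 7 else if s = 9 then 8 else s

theorem words23 : ∀ w ∈ Fi23P.words,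
    w.map τ23 ∈ WY ∨ (w.map τ23).reverse ∈ WY ∨ w.map τ23 = R1w := by decide

theorem τ23_surj : ∀ s < 10, ∃ t < 10, τ23 t = s := by decide

theorem τ23_comm : ∀ s < 10, s ≠ 7 → [τ23 s, 10, τ23 s, 10] ∈ WY := by decide

theorem τ23_lt9 : ∀ s < 10, s ≠ 7 → τ23 s < 9 := by decide

theorem R1w_lt9 : ∀ s ∈ R1w, s < 9 := by decide

theorem sw57 : Fi23B.cert.wordL 57 = [0] := by decide +kernel
theorem sw58 : Fi23B.cert.wordL 58 = [1] := by decide +kernel
theorem sw59 : Fi23B.cert.wordL 59 = [2] := by decide +kernel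
theorem sw60 : Fi23B.cert.wordL 60 = [3] := by decide +kernel
theorem sw61 : Fi23B.cert.wordL 61 = [4] := by decide +kernel
theorem sw62 : Fi23B.cert.wordL 62 = [5] := by decide +kernel
theorem sw63 : Fi23B.cert.wordL 63 = [6] := by decide +kernel
theorem sw64 : Fi23B.cert.wordL 64 = [8] := by decide +kernel
theorem sw65 : Fi23B.cert.wordL 65 = [9] := by decide +kernel

/-- the subgroup words of the certificate of `Fi₂₃` are the letters other than `j` -/
theorem subw23 : ∀ wid, Fi23B.cert.nsub ≤ wid → wid < Fi23B.cert.nw →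
    ∃ s < 10, s ≠ 7 ∧ Fi23B.cert.wordL wid = [s] := by
  intro wid h1 h2
  have h1' : 57 ≤ wid := h1
  have h2' : wid < 66 := h2
  interval_cases wid
  · exact ⟨0, by decide, by decide, sw57⟩
  · exact ⟨1, by decide, by decide, sw58⟩
  · exact ⟨2, by decide, by decide, sw59⟩
  · exact ⟨3, by decide, by decide, sw60⟩
  · exact ⟨4, by decide, by decide, sw61⟩
  · exact ⟨5, by decide, by decide, sw62⟩
  · exact ⟨6, by decide, by decide, sw63⟩
  · exact ⟨8, by decide, by decide, sw64⟩
  · exact ⟨9, by decide, by decide, sw65⟩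

theorem zpowers_normal (hz : ∀ y : Yh, y * zY = zY * y) : (Subgroup.zpowers zY).Normal := by
  constructor
  intro n hn g
  obtain ⟨i, rfl⟩ := Subgroup.mem_zpowers_iff.mp hn
  have hc : Commute g (zY ^ i) := Commute.zpow_right (hz g) i
  rw [hc.eq, mul_inv_cancel_right]
  exact Subgroup.zpow_mem_zpowers zY i

/-- **The last generator lies in the subgroup generated by `a, …, i`.** -/
theorem mem_of_central (hz : ∀ y : Yh, y * zY = zY * y)
    (hk : δ 10 ∈ Subgroup.closure (δ '' {s | s < 10})) :
    δ 10 ∈ Subgroup.closure (δ '' {s | s < 9}) := by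
  have hN : (Subgroup.zpowers zY).Normal := zpowers_normal hz
  let q : Yh →* Yh ⧸ Subgroup.zpowers zY := QuotientGroup.mk' (Subgroup.zpowers zY)
  have hq1 : ∀ x : Yh, q x = 1 ↔ x ∈ Subgroup.zpowers zY := fun x => QuotientGroup.eq_one_iff x
  have hzH : zY ∈ Subgroup.closure (δ '' {s | s < 9}) := by
    unfold zY
    apply Subgroup.list_prod_mem
    intro x hx
    obtain ⟨s, hs, rfl⟩ := List.mem_map.mp hx
    exact Subgroup.subset_closure ⟨s, R1w_lt9 s hs, rfl⟩
  let σ : ℕ → Yh ⧸ Subgroup.zpowers zY := fun s => q (δ (τ23 s))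
  have hσ : ∀ s, σ s * σ s = 1 := fun s => by
    show q (δ (τ23 s)) * q (δ (τ23 s)) = 1
    rw [← map_mul, δ_sq, map_one]
  have hσw : ∀ w ∈ Fi23P.words, (w.map σ).prod = 1 := by
    intro w hw
    have e : (w.map σ).prod = q (((w.map τ23).map δ).prod) := by
      rw [map_list_prod, List.map_map, List.map_map]
      rfl
    rw [e]
    rcases words23 w hw with h | h | h
    · rw [δ_word h, map_one]
    · have h1 := δ_word h
      rw [prod_reverse_inv δ_sq, inv_eq_one] at h1
      rw [h1, map_one]
    · rw [h]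
      exact (hq1 _).mpr (Subgroup.mem_zpowers zY)
  let f : PresentedGroup Fi23P.rels →* Yh ⧸ Subgroup.zpowers zY :=
    PresentedGroup.toGroup (f := fun x => σ (Fi23P.idx x)) (Fi23P.lift_one σ hσ hσw)
  have hf : ∀ s < 10, f (Cfsg.Agent.S1697.γ s) = q (δ (τ23 s)) := by
    intro s hs
    show f (PresentedGroup.of (Fi23P.gen s)) = _
    rw [PresentedGroup.toGroup.of, Fi23P.idx_gen s hs]
  by_cases h9 : q (δ 9) = 1
  · -- the degenerate case: `j` is central
    obtain ⟨i, hi⟩ := Subgroup.mem_zpowers_iff.mp ((hq1 _).mp h9)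
    have hc9 : ∀ y : Yh, δ 9 * y = y * δ 9 := by
      intro y
      rw [← hi]
      exact ((Commute.zpow_right (hz y) i).eq).symm
    have e1 : δ 9 = δ 10 := δ_eq (by decide) (hc9 (δ 10))
    have e2 : δ 6 = δ 9 := δ_eq (by decide) ((hc9 (δ 6)).symm)
    rw [← e1, ← e2]
    exact Subgroup.subset_closure ⟨6, (by decide : (6 : ℕ) < 9), rfl⟩
  · have hsimple := Cfsg.Agent.S1697.simple
    have hinj : Function.Injective f := by
      rw [← MonoidHom.ker_eq_bot_iff]
      rcases (inferInstance : f.ker.Normal).eq_bot_or_eq_top with h | h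
      · exact h
      · exfalso
        apply h9
        have h7 : Cfsg.Agent.S1697.γ 7 ∈ f.ker := by rw [h]; exact Subgroup.mem_top _
        have h8 := MonoidHom.mem_ker.mp h7
        rw [hf 7 (by decide)] at h8
        exact h8
    -- a preimage of the last generator
    have hrange : (Subgroup.closure (δ '' {s | s < 10})).map q ≤ f.range := by
      rw [MonoidHom.map_closure, Subgroup.closure_le]
      rintro _ ⟨_, ⟨s, hs, rfl⟩, rfl⟩
      obtain ⟨t, ht, e⟩ := τ23_surj s hs
      exact ⟨Cfsg.Agent.S1697.γ t, by rw [hf t ht, e]⟩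
    obtain ⟨kt, hkt⟩ := hrange (Subgroup.mem_map_of_mem q hk)
    -- it centralises the subgroup
    have hcomm : ∀ s < 10, s ≠ 7 →
        kt * Cfsg.Agent.S1697.γ s = Cfsg.Agent.S1697.γ s * kt := by
      intro s hs h7
      apply hinj
      rw [map_mul, map_mul, hkt, hf s hs, ← map_mul, ← map_mul]
      congr 1
      exact (δ_comm (τ23_comm s hs h7)).symm
    have hcen : ∀ h ∈ Fi23B.cert.subgp Cfsg.Agent.S1697.γ, h * kt = kt * h := by
      intro h hh
      refine comm_closure (T := {x | ∃ wid, Fi23B.cert.nsub ≤ wid ∧ wid < Fi23B.cert.nw ∧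
        ((Fi23B.cert.wordL wid).map Cfsg.Agent.S1697.γ).prod = x}) ?_ h hh
      rintro _ ⟨wid, h1, h2, rfl⟩
      obtain ⟨s, hs, h7, e⟩ := subw23 wid h1 h2
      rw [e]
      simp only [List.map_cons, List.map_nil, List.prod_cons, List.prod_nil, mul_one]
      exact (hcomm s hs h7).symm
    -- by maximality, it lies in the subgroup
    have hkH : kt ∈ Fi23B.cert.subgp Cfsg.Agent.S1697.γ := by
      have hnorm : kt ∈ Subgroup.normalizer
          ((Fi23B.cert.subgp Cfsg.Agent.S1697.γ : Subgroup _) : Set _) := by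
        rw [Subgroup.mem_normalizer_iff]
        intro h
        constructor
        · intro hh
          rw [← hcen h hh, mul_inv_cancel_right]
          exact hh
        · intro hh
          have e := hcen _ hh
          have e2 : kt * h = kt * (kt * h * kt⁻¹) := by rw [← e]; group
          rw [mul_left_cancel e2]
          exact hh
      have hle : Fi23B.cert.subgp Cfsg.Agent.S1697.γ ⊔ Subgroup.zpowers kt ≤
          Subgroup.normalizer ((Fi23B.cert.subgp Cfsg.Agent.S1697.γ : Subgroup _) : Set _) :=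
        sup_le Subgroup.le_normalizer (by rw [Subgroup.zpowers_le]; exact hnorm)
      rcases Cfsg.Agent.S1697.M_max _ le_sup_left with hM | hM
      · rw [← hM]
        exact (le_sup_right : Subgroup.zpowers kt ≤ _) (Subgroup.mem_zpowers kt)
      · exfalso
        rw [hM, top_le_iff] at hle
        have hnl : (Fi23B.cert.subgp Cfsg.Agent.S1697.γ).Normal :=
          Subgroup.normalizer_eq_top_iff.mp hle
        have hidx : (Fi23B.cert.subgp Cfsg.Agent.S1697.γ).index = 31671 :=
          Cert.index_eq Cfsg.Agent.S1697.B_hP Cfsg.Agent.S1697.B_hC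
        rcases hnl.eq_bot_or_eq_top with hb | ht
        · rw [hb, Subgroup.index_bot, Cfsg.Agent.S1697.card_eq] at hidx
          exact absurd hidx (by decide)
        · rw [ht, Subgroup.index_top] at hidx
          exact absurd hidx (by decide)
    -- back to `Ŷ`
    have hmap : (Fi23B.cert.subgp Cfsg.Agent.S1697.γ).map f ≤
        (Subgroup.closure (δ '' {s | s < 9})).map q := by
      unfold Cert.subgp
      rw [MonoidHom.map_closure, Subgroup.closure_le]
      rintro _ ⟨_, ⟨wid, h1, h2, rfl⟩, rfl⟩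
      obtain ⟨s, hs, h7, e⟩ := subw23 wid h1 h2
      rw [e]
      simp only [List.map_cons, List.map_nil, List.prod_cons, List.prod_nil, mul_one]
      rw [hf s hs]
      exact Subgroup.mem_map_of_mem q (Subgroup.subset_closure ⟨τ23 s, τ23_lt9 s hs h7, rfl⟩)
    obtain ⟨h, hh, hq⟩ := hmap (Subgroup.mem_map_of_mem f hkH)
    rw [hkt] at hq
    have hN2 : h⁻¹ * δ 10 ∈ Subgroup.zpowers zY := QuotientGroup.eq.mp hq
    obtain ⟨i, hi⟩ := Subgroup.mem_zpowers_iff.mp hN2
    have e : δ 10 = h * zY ^ i := by rw [hi]; group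
    rw [e]
    exact Subgroup.mul_mem _ hh (Subgroup.zpow_mem _ hzH i)

end Cfsg.Agent.Lib.Helper38.Y5
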